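import Cfsg.Agent.H20.LD4Tv

/-! LD4: the corrected extension property (nontrivial flags only) and the three jobs using it. -/

set_option autoImplicit false
set_option linter.unusedVariables false

namespace H57.LD4F

open Matrix H20.LD

universe u

/-- Opposite pairs lie in nondegenerate triples. -/
def Ext2 {k : Type u} [Field k] (T : V4 k → V4 k → Prop) : Prop :=
  ∀ u φ w ψ, T u φ → T w ψ → φ ⬝ᵥ w ≠ 0 → ψ ⬝ᵥ u ≠ 0 → ∃ z χ, ND T u φ w ψ z χ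

theorem Ext2.pb {k : Type u} [Field k] {T : V4 k → V4 k → Prop} (h : Ext2 T) (B : G4 k) :
    Ext2 (pb B T) := fun u φ w ψ h1 h2 a b => by
  obtain ⟨z, χ, h3⟩ := h _ _ _ _ h1 h2 (by rwa [conj_dot']) (by rwa [conj_dot'])
  exact ⟨(B⁻¹).val *ᵥ z, χ ᵥ* B.val, (nd_pb B).2 (by simpa using h3)⟩

def JobTVS2 : Prop := AllT.{u} fun _ _ G _ =>
  (¬ HasND (TV G) → ∀ g ∈ G, (g⁻¹).val.trace = g.val.trace) ∧
    (H20.LD.Sym (TV G) → HasND (TV G) → Ext2 (TV G))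

def JobTVU12 : Prop := AllT.{u} fun _ _ G K =>
  Lam K (TV G) → H20.LD.Sym (TV G) → Ext2 (TV G) → NoFat (TV G) ∧ Un K (TV G) (Nat.card K)

def JobTVM2 : Prop := AllT.{u} fun k _ G K =>
  (2 : k) = 0 → Two K → Sw (TV G) → H20.LD.Sym (TV G) → NoFat (TV G) → Ext2 (TV G) → MW (TV G) →
    ⁅G, G⁆ = G → Lam K (TV G)

end H57.LD4F
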