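/- Job TR1 of `blueprints/C11.md`: a transposition matrix in `G`, `r = 11`. -/
import Cfsg.Agent.H53.C11Spec
import Cfsg.Agent.H72.C6B

set_option autoImplicit false
set_option linter.unusedSectionVars false

namespace H57.C11

open Matrix Cfsg.Geo H25 H53.C6 Subgroup Equiv
open H72.C6T (col2 sumw vv)

universe u

variable {F : Type u} [Field F] [Finite F] {r : ℕ} [NeZero r] {ω : Fˣ} {G : Subgroup (GL (ZMod r) F)}

theorem two_ne (hf : Fld1 r ω) : (2 : ZMod r) ≠ 0 := by obtain rfl := hf.hr; decide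

theorem vv_ne (hf : Fld1 r ω) {i : ZMod r} (hi : i ≠ 0) : vv ω i ≠ 0 := fun e => by
  have := Fact.mk hf.prime
  rw [vv, sub_eq_zero, Units.val_inj, w_inj hf.ord] at e
  exact mul_ne_zero (two_ne hf) hi (by linear_combination e)

theorem vv_sq (hf : Fld1 r ω) : ∑ i : ZMod r, vv ω i * vv ω i = -2 * r := by
  have : ∀ i : ZMod r, vv ω i * vv ω i = w ω (2 * i) + w ω (-2 * i) - 2 := fun i => by
    rw [two_mul, neg_mul, two_mul, neg_add, w_add hf.ord, w_add hf.ord, vv, w_neg hf.ord]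
    simp only [Units.val_mul, Units.val_inv_eq_inv_val]
    field_simp
    ring
  simp only [this, Finset.sum_sub_distrib, Finset.sum_add_distrib, sum_w hf.ord (two_ne hf),
    sum_w hf.ord (neg_ne_zero.2 (two_ne hf))]
  simp [mul_comm]

theorem refl_val (hf : Fld1 r ω) : (Ph r ω * pm (swap 1 (-1)) * (Ph r ω)⁻¹).val =
    1 + (r : F)⁻¹ • vecMulVec (vv ω) (vv ω) := by
  have r0 := cast_ne_zero hf.ord
  have n1 : (1 : ZMod r) ≠ -1 := fun e => two_ne hf (by linear_combination e)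
  rw [Units.val_mul, Units.mul_inv_eq_iff_eq_mul, add_mul, one_mul, smul_mul_assoc, vecMulVec_mul]
  ext a k
  have : (vv ω ᵥ* (Ph r ω).val) k = (if k = -1 then (r : F) else 0) - if k = 1 then (r : F) else 0 := by
    simp only [← add_eq_zero_iff_eq_neg, ← sub_eq_zero (a := k) (b := 1)]
    rw [← sumw hf.ord, ← sumw hf.ord, ← Finset.sum_sub_distrib]
    refine Finset.sum_congr rfl fun i _ => ?_
    change vv ω i * (Ph r ω).val i k = _
    rw [Ph_apply hf.ord, vv, add_mul, sub_mul k, one_mul, sub_eq_add_neg (k * i), w_add hf.ord,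
      w_add hf.ord, mul_comm i k]
    push_cast
    ring
  rw [Units.val_mul, mul_pm_apply, Matrix.add_apply, Matrix.smul_apply, vecMulVec_apply, this,
    Ph_apply hf.ord, Ph_apply hf.ord]
  by_cases h1 : k = 1
  · simp [h1, n1, vv]; field_simp; ring
  by_cases h2 : k = -1
  · simp [h2, n1.symm, vv]; field_simp; ring
  simp [h1, h2, swap_apply_of_ne_of_ne]

theorem hm_pair (hf : Fld1 r ω) (hb : Base ω G) (h : pm (swap 1 (-1)) ∈ G) {i : ZMod r} (hi : i ≠ 0)
    (j : ZMod r) : hm 0 (w ω j)⁻¹ * hm i (w ω j) ∈ G := by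
  have := Fact.mk hf.prime
  have t := two_ne hf
  have h1 := hb.conj (Units.mk0 (i / 2) (div_ne_zero hi t)) (i / 2) h
  rw [← map_inv, ← map_mul, ← map_mul, ← swap_apply_apply, af_apply, af_apply, Units.val_mk0,
    show i / 2 * 1 + i / 2 = i by field_simp; ring, show i / 2 * -1 + i / 2 = 0 by ring] at h1
  have h2 := pow_mem (mul_mem hb.d (inv_mem (mul_mem (mul_mem h1 hb.d) (inv_mem h1)))) (j / i).val
  rw [dp, pm_conj_dg, ← map_inv, ← map_mul, ← map_pow] at h2
  convert h2 using 1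
  rw [hm, hm, ← map_mul]
  congr 1
  funext k
  simp only [Pi.mul_apply, Pi.pow_apply, Pi.inv_apply, pow_one, swap_inv, ← w_sub hf.ord,
    w_pow hf.ord, ZMod.natCast_zmod_val]
  by_cases k0 : k = 0
  · simp [k0, hi.symm, w_neg hf.ord, hi]
  by_cases ki : k = i
  · simp [ki, hi]
  simp [k0, ki, swap_apply_of_ne_of_ne]

theorem vv_inj (hf : Fld1 r ω) {i j : ZMod r} (e : vv ω i = vv ω j) : i = j := by
  have := Fact.mk hf.prime
  have h1 : ((w ω i : F) - w ω j) * (1 + w ω (-i + -j)) = 0 := by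
    rw [vv, vv, w_neg hf.ord, w_neg hf.ord] at e
    rw [w_add hf.ord, w_neg hf.ord, w_neg hf.ord]
    simp only [Units.val_mul, Units.val_inv_eq_inv_val] at e ⊢
    have a := (w ω i).ne_zero
    have b := (w ω j).ne_zero
    rw [← sub_eq_zero] at e
    rw [← e]
    field_simp
    ring
  rcases mul_eq_zero.1 h1 with h | h
  · exact (w_inj hf.ord).1 (Units.ext (sub_eq_zero.1 h))
  · have h2 : w ω (-i + -j + (-i + -j)) = 1 := by
      rw [w_add hf.ord]
      refine Units.ext ?_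
      rw [Units.val_mul, Units.val_one]
      linear_combination ((w ω (-i + -j) : F) - 1) * h
    rw [w_eq_one_iff hf.ord, ← two_mul, mul_eq_zero_iff_left (two_ne hf)] at h2
    rw [h2, w_zero] at h
    exact absurd (by simpa [one_add_one_eq_two] using h) hf.two

theorem jobTR1 : JobTR1.{u} := by
  intro dkb el F _ _ r _ ω G hf hb h
  have r0 := cast_ne_zero hf.ord
  obtain ⟨i, i0, hi, hj⟩ : ∃ i : ZMod r, i ≠ 0 ∧ vv ω i * vv ω i + 2 * r ≠ 0 ∧
      vv ω i * vv ω i + r ≠ 0 := by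
    by_contra! c
    have k : ∀ i j : ZMod r, i ≠ j → i ≠ -j → ∀ a : F, vv ω i * vv ω i + a = 0 →
        vv ω j * vv ω j + a ≠ 0 := fun i j a b x e1 e2 => by
      rcases mul_self_eq_mul_self_iff.1 (show vv ω i * vv ω i = vv ω j * vv ω j by
        linear_combination e1 - e2) with e | e
      · exact a (vv_inj hf e)
      · exact b (vv_inj hf (by rw [e, vv, vv, neg_neg, neg_sub]))
    obtain rfl := hf.hr
    by_cases c1 : vv ω (1 : ZMod 11) * vv ω (1 : ZMod 11) + 2 * (11 : ℕ) = 0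
    · exact k 2 3 (by decide) (by decide) _ (c 2 (by decide) (k 1 2 (by decide) (by decide) _ c1))
        (c 3 (by decide) (k 1 3 (by decide) (by decide) _ c1))
    have c2 := c 1 (by decide) c1
    by_cases c3 : vv ω (2 : ZMod 11) * vv ω (2 : ZMod 11) + 2 * (11 : ℕ) = 0
    · exact k 1 3 (by decide) (by decide) _ c2 (c 3 (by decide) (k 2 3 (by decide) (by decide) _ c3))
    · exact k 1 2 (by decide) (by decide) _ c2 (c 2 (by decide) c3)
  have v0 := vv_ne hf i0
  obtain ⟨τ, hτ⟩ : ∃ τ : F, τ = 1 + (r : F)⁻¹ * (vv ω i * vv ω i) := ⟨_, rfl⟩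
  let A : GL (Fin 2) F := GeneralLinearGroup.mkOfDetNeZero
    !![τ, -(1 + τ) * vv ω i; (r : F)⁻¹ * vv ω i, -τ] (by
      rw [det_fin_two_of, show τ * -τ - -(1 + τ) * vv ω i * ((r : F)⁻¹ * vv ω i) = -1 by
        linear_combination (-1 - τ) * hτ]
      simp)
  let e : ZMod r → F := Pi.single i 1
  let v : ZMod r → F := vv ω - vv ω i • e
  let H := sec (G ⊓ centralizer {hm 0 ω}) (of fun a j => ![e a, v a] j)
  have hA : A ∈ H := by
    refine ⟨_, ⟨G.mul_mem (G.mul_mem hb.ph h) (G.inv_mem hb.ph), mem_centralizer_singleton_iff.2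
      (comm_dg fun a b n => ?_)⟩, (col2 _ _ _ _).2 ?_⟩
    · have : a ≠ b ∧ (a = 0 ∨ b = 0) := ⟨by rintro rfl; exact n rfl, by
        by_contra! c
        simp [c.1, c.2] at n⟩
      rw [refl_val hf, Matrix.add_apply, one_apply_ne this.1]
      rcases this.2 with c | c <;> simp [c, vv, vecMulVec_apply]
    · have s := vv_sq hf
      have d1 : vv ω ⬝ᵥ e = vv ω i := by simp [e]
      have d2 : vv ω ⬝ᵥ vv ω = -2 * r := s
      simp only [v, refl_val hf, add_mulVec, one_mulVec, smul_mulVec, vecMulVec_mulVec, dotProduct_sub,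
        dotProduct_smul, d1, d2]
      constructor <;> ext a <;> simp [A, hτ] <;> field_simp <;> ring
  have hD : ∀ j : ZMod r, dg ![w ω j, 1] ∈ H := fun j => by
    refine ⟨_, ⟨hm_pair hf hb h i0 j, mem_centralizer_singleton_iff.2 ?_⟩, (col2 _ _ _ _).2 ?_⟩
    · simp only [hm, ← map_mul, mul_comm]
    · rw [hm, hm, ← map_mul, dg_val]
      constructor <;> ext a <;> by_cases c : a = i <;> by_cases c' : a = 0 <;>
        simp [c, c', e, v, dg_val, mulVec_diagonal, i0, i0.symm, vv]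
  have o1 : ∀ m, 1 ≤ m → m < r → ω ^ m ≠ 1 := fun m a b =>
    pow_ne_one_of_lt_orderOf (by omega) (hf.ord.symm ▸ b)
  have τ0 : τ ≠ 0 := fun k => hj (by
    rw [hτ] at k
    field_simp at k
    linear_combination k)
  obtain ⟨y, hy, ny⟩ : ∃ y ∈ H, ∀ m, 1 ≤ m → m ≤ 5 → y ^ m ∉ scalars (Fin 2) F := by
    refine ⟨_, hD 1, fun m a b c => ?_⟩
    rw [← map_pow, dg_mem_scalars] at c
    obtain ⟨c, hc⟩ := c
    exact o1 m a (by have := hf.hr; omega) (by simpa [w_one hf.ord] using (hc 0).trans (hc 1).symm)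
  obtain ⟨c, c0, u, ⟨g, hg, e1⟩, e2⟩ := dkb F H ω 1 _ A y hf.nsq (hD 1) (by
      ext a b; fin_cases a <;> fin_cases b <;> simp [dg_val, w_one hf.ord])
    (fun k => o1 2 (by omega) (by have := hf.hr; omega) (Units.ext (by simpa using k)))
    hA (mul_ne_zero (fun k => hi (by
      rw [hτ] at k
      field_simp at k
      linear_combination -k)) v0) (mul_ne_zero (inv_ne_zero r0) v0) (.inl τ0) hy ny
  rw [col2, e2] at e1
  have h1 := hm_pair hf hb h i0 1
  rw [w_one hf.ord] at h1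
  have h2 : hm (0 : ZMod r) ω⁻¹ = (hm 0 ω)⁻¹ := by rw [hm, hm, ← map_inv, Pi.mulSingle_inv]
  obtain ⟨φ, p1, p2, p3⟩ := row_of_fix hg.1 h1
    (h2 ▸ (show Commute g _ from mem_centralizer_singleton_iff.1 hg.2).symm.inv_left)
    (by simp only [hm, commute_iff_eq, ← map_mul, mul_comm])
    (by simpa using o1 1 le_rfl hf.prime.one_lt) (e1.1.trans (by simp [e])) (v := v)
    (by rw [e1.2]; simpa [e] using c0)
  exact el F r ω G hf hb i φ p1 p2 p3

end H57.C11
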