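import Cfsg.Agent.H57.LD4Fix
import Cfsg.Agent.H25.TvSU

/-! LD4: the invariant form of a symmetric system of transvections. -/

set_option autoImplicit false
set_option linter.unusedVariables false

namespace H57.LD4F

open Matrix H20.LD

universe u

variable {k : Type u} [Field k] {T : V4 k → V4 k → Prop} {K : Subfield k} {G : Subgroup (G4 k)}
  {u w z φ ψ χ : V4 k} {σ : k →+* k}

theorem sym_ne (hS : H20.LD.Sym T) (h1 : T u φ) (h2 : T w ψ) (a : φ ⬝ᵥ w ≠ 0) (hu : u ≠ 0)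
    (hψ : ψ ≠ 0) : ψ ⬝ᵥ u ≠ 0 := fun e => a (hS _ _ _ _ h2 h1 hψ hu e)

theorem nd_ne (hS : H20.LD.Sym T) (h : ND T u φ w ψ z χ) : φ ⬝ᵥ w ≠ 0 ∧ ψ ⬝ᵥ u ≠ 0 := by
  obtain ⟨h1, h2, h3, h4⟩ := h
  have a : φ ⬝ᵥ w ≠ 0 := fun e => h4 (by
    simp [cyc, e, hS _ _ _ _ h1 h2 (fun e => h4 (by simp [cyc, e])) (fun e => h4 (by simp [cyc, e])) e])
  exact ⟨a, sym_ne hS h1 h2 a (fun e => h4 (by simp [cyc, e])) (fun e => h4 (by simp [cyc, e]))⟩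

/-- the two flags are scaled compatibly with a skew-hermitian form -/
def Cp (σ : k →+* k) (u φ w ψ : V4 k) : Prop :=
  σ (φ ⬝ᵥ w) = -(ψ ⬝ᵥ u) ∧ σ (ψ ⬝ᵥ u) = -(φ ⬝ᵥ w)

theorem Cp.symm (h : Cp σ u φ w ψ) : Cp σ w ψ u φ := ⟨h.2, h.1⟩

/-- the cyclic products are skew -/
def Tau (σ : k →+* k) (T : V4 k → V4 k → Prop) : Prop :=
  ∀ u φ w ψ z χ, T u φ → T w ψ → T z χ → σ (cyc u φ w ψ z χ) = -cyc u φ z χ w ψ

/-- the invariants of pairs are norms -/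
def Nm (σ : k →+* k) (T : V4 k → V4 k → Prop) : Prop :=
  ∀ u φ w ψ, T u φ → T w ψ → ∃ n, σ (σ n) = n ∧ σ n * n = -(φ ⬝ᵥ w * ψ ⬝ᵥ u)

theorem cp_trans (ht : Tau σ T) (h1 : T u φ) (h2 : T w ψ) (h3 : T z χ) (c1 : Cp σ u φ w ψ)
    (c2 : Cp σ u φ z χ) (a1 : φ ⬝ᵥ w ≠ 0) (a2 : φ ⬝ᵥ z ≠ 0) : Cp σ w ψ z χ := by
  have key : ∀ {w ψ z χ}, T w ψ → T z χ → Cp σ u φ w ψ → Cp σ u φ z χ → φ ⬝ᵥ w ≠ 0 → φ ⬝ᵥ z ≠ 0 →
      σ (ψ ⬝ᵥ z) = -(χ ⬝ᵥ w) := fun {w ψ z χ} h2 h3 c1 c2 a1 a2 => by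
    have a3 : ψ ⬝ᵥ u ≠ 0 := fun h0 => a1 (by simpa [h0] using c1.1)
    have := ht _ _ _ _ _ _ h1 h2 h3
    rw [cyc, cyc, map_mul, map_mul, c1.1, c2.2] at this
    exact mul_left_cancel₀ (mul_ne_zero a3 a2) (by linear_combination this)
  exact ⟨key h2 h3 c1 c2 a1 a2, key h3 h2 c2 c1 a2 a1⟩

theorem cp_norm (hN : Nm σ T) (h1 : T u φ) (h2 : T w ψ) (a1 : φ ⬝ᵥ w ≠ 0)
    (a2 : ψ ⬝ᵥ u ≠ 0) : ∃ s : k, s ≠ 0 ∧ Cp σ u φ (s • w) (s⁻¹ • ψ) := by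
  obtain ⟨n, b1, b2⟩ := hN _ _ _ _ h1 h2
  have hn : n ≠ 0 := by rintro rfl; simp [a1, a2] at b2
  have e1 : φ ⬝ᵥ (n / φ ⬝ᵥ w) • w = n := by simp [a1]
  have e2 : ((n / φ ⬝ᵥ w)⁻¹ • ψ) ⬝ᵥ u = -σ n := by simp; field_simp; linear_combination b2
  exact ⟨n / φ ⬝ᵥ w, div_ne_zero hn a1, by rw [e1, e2, neg_neg], by rw [e1, e2, map_neg, b1]⟩

theorem exists_basis {S : Set (V4 k)} (h : ∀ η : V4 k, η ≠ 0 → ∃ w ∈ S, η ⬝ᵥ w ≠ 0) :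
    ∃ B : G4 k, ∀ i, B.val *ᵥ Pi.single i 1 ∈ S := by
  have h1 : Submodule.span k S = ⊤ := by
    by_contra hn
    obtain ⟨f, f1, f2⟩ := Submodule.exists_dual_map_eq_bot_of_lt_top (lt_top_iff_ne_top.2 hn)
      inferInstance
    have e : ∀ v : V4 k, (fun i => f (Pi.single i 1)) ⬝ᵥ v = f v := fun v => by
      conv_rhs => rw [pi_eq_sum_univ' v]
      simp [dotProduct, mul_comm]
    obtain ⟨w, w1, w2⟩ := h (fun i => f (Pi.single i 1)) fun h0 =>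
      f1 (LinearMap.ext fun v => by rw [← e, h0]; simp)
    exact w2 ((e w).trans ((Submodule.eq_bot_iff _).1 f2 _ ⟨w, Submodule.subset_span w1, rfl⟩))
  have h2 := Submodule.exists_fun_fin_finrank_span_eq k S
  rw [h1, finrank_top, Module.finrank_fin_fun] at h2
  obtain ⟨f, f1, -, f3⟩ := h2
  obtain ⟨B, hB⟩ := exists_unit (M := (of f)ᵀ) fun v hv => by
    funext i
    refine Fintype.linearIndependent_iff.1 f3 v ?_ i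
    rw [← hv]; funext j; simp [mulVec, dotProduct, mul_comm]
  exact ⟨B, fun i => by rw [hB, mulVec_single_one]; exact f1 i⟩

/-- the system preserves the skew-hermitian form `H` -/
structure Fm (σ : k →+* k) (T : V4 k → V4 k → Prop) (H : M4 k) : Prop where
  det : H.det ≠ 0
  skew : ∀ i j, σ (H i j) = -H j i
  flag : ∀ u φ, T u φ → u ≠ 0 → φ ≠ 0 → ∃ s : k, s ≠ 0 ∧ σ ∘ σ ∘ (s • u) = s • u ∧
    s⁻¹ • φ = (σ ∘ (s • u)) ᵥ* H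

theorem exists_fm (h : TS K T) (hS : H20.LD.Sym T) (ht : Tau σ T) (hN : Nm σ T) :
    ∃ B H, Fm σ (pb B T) H := by
  obtain ⟨u0, φ0, t0, n1, n2⟩ := h.ne
  let O : V4 k → V4 k → Prop := fun w ψ => T w ψ ∧ Cp σ u0 φ0 w ψ ∧ φ0 ⬝ᵥ w ≠ 0
  let Q : V4 k → V4 k → Prop := fun y η => ∀ w ψ, O w ψ → Cp σ w ψ y η
  have o1 : ∀ w ψ, T w ψ → φ0 ⬝ᵥ w ≠ 0 → ψ ≠ 0 → ∃ s : k, s ≠ 0 ∧ O (s • w) (s⁻¹ • ψ) :=
    fun w ψ a b c => by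
      obtain ⟨s, s0, d⟩ := cp_norm hN t0 a b (sym_ne hS t0 a b n1 c)
      exact ⟨s, s0, h.rescale a s0, d, by simp [s0, b]⟩
  have o2 : ∀ w ψ, O w ψ → Q w ψ := fun w ψ a y η b =>
    cp_trans ht t0 b.1 a.1 b.2.1 a.2.1 b.2.2 a.2.2
  have cn : ∀ {w ψ η : V4 k}, T w ψ → η ≠ 0 → η - (η ⬝ᵥ w) • ψ ≠ 0 := fun {w ψ η} a b e => by
    have e1 := congrArg (· ⬝ᵥ w) e
    simp [h.orth a] at e1
    simp [e1, b] at e
  have o3 : ∀ y η, T y η → y ≠ 0 → η ≠ 0 → ∃ s : k, s ≠ 0 ∧ Q (s • y) (s⁻¹ • η) := fun y η a b c => by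
    by_cases d : φ0 ⬝ᵥ y = 0
    swap
    · obtain ⟨s, s0, e⟩ := o1 y η a d c
      exact ⟨s, s0, o2 _ _ e⟩
    obtain ⟨w, ψ, e1, e2, e3⟩ := h.exists_opp b n2
    obtain ⟨r, r0, f⟩ := o1 w ψ e1 e2 (left_ne_of_dot e3)
    obtain ⟨s, s0, g⟩ := o1 _ _ (h.conj e1 a) (by simp [d, e2, e3]) (cn e1 c)
    refine ⟨s, s0, fun v χ o => ?_⟩
    obtain ⟨p1, p2⟩ := o2 _ _ g _ _ o
    obtain ⟨q1, q2⟩ := o2 _ _ f _ _ o
    obtain ⟨r1, r2⟩ := o2 _ _ g _ _ f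
    simp only [dotProduct_add, dotProduct_smul, smul_dotProduct, sub_dotProduct, smul_eq_mul,
      map_mul, map_add, map_sub, map_inv₀, h.orth e1, mul_zero, add_zero, sub_zero] at p1 p2 q1 q2 r1 r2
    have sr : σ r ≠ 0 := by simpa using r0
    have ss : σ s ≠ 0 := by simpa using s0
    constructor <;> simp only [dotProduct_smul, smul_dotProduct, smul_eq_mul, map_mul, map_inv₀]
    · have e4 : σ s * σ (ψ ⬝ᵥ y) = -(σ r * (r * s⁻¹ * η ⬝ᵥ w)) := by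
        field_simp at r1 ⊢; linear_combination r1
      have e5 : σ r * r * (σ (χ ⬝ᵥ w)) = -(ψ ⬝ᵥ v) := by
        field_simp at q1 ⊢; linear_combination q1
      linear_combination p1 - σ (χ ⬝ᵥ w) * e4 + (s⁻¹ * η ⬝ᵥ w) * e5
    · have e4 : (σ s)⁻¹ * σ (η ⬝ᵥ w) = -((σ r)⁻¹ * (r⁻¹ * s * ψ ⬝ᵥ y)) := by
        field_simp at r2 ⊢; linear_combination r2
      have e5 : (σ r)⁻¹ * r⁻¹ * σ (ψ ⬝ᵥ v) = -(χ ⬝ᵥ w) := by
        field_simp at q2 ⊢; linear_combination q2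
      linear_combination p2 + σ (ψ ⬝ᵥ v) * e4 - (s * ψ ⬝ᵥ y) * e5
  obtain ⟨B, hB⟩ := exists_basis (S := {w | ∃ ψ, O w ψ}) fun η hη => by
    obtain ⟨w, ψ, a1, a2, a3⟩ := h.exists_opp n1 hη
    have key : ∀ w ψ, T w ψ → ψ ≠ 0 → φ0 ⬝ᵥ w ≠ 0 → η ⬝ᵥ w ≠ 0 →
        ∃ w ∈ {w | ∃ ψ, O w ψ}, η ⬝ᵥ w ≠ 0 := fun w ψ a b c d => by
      obtain ⟨s, s0, e⟩ := o1 w ψ a c b
      exact ⟨_, ⟨_, e⟩, by simp [s0, d]⟩
    exact key w ψ a1 (left_ne_of_dot a3)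
      (sym_ne hS a1 t0 a3 (right_ne_of_dot a2) n2) a2
  choose ε hε using hB
  let H : M4 k := of fun i j => ε i ⬝ᵥ B.val *ᵥ Pi.single j 1
  have sk : ∀ i j, σ (H i j) = -H j i := fun i j => (o2 _ _ (hε j) _ _ (hε i)).1
  have hm : ∀ x i, (H *ᵥ x) i = ε i ⬝ᵥ B.val *ᵥ x := fun x i => by
    conv_rhs => rw [pi_eq_sum_univ' x]
    simp [H, mulVec, dotProduct_sum, mulVec_sum, mul_comm, dotProduct, Finset.mul_sum,
      Fin.sum_univ_four]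
    ring
  have sm : ∀ x : V4 k, σ ∘ (H *ᵥ x) = -((σ ∘ x) ᵥ* H) := fun x => by
    funext i
    simp [mulVec, vecMul, dotProduct, sk, mul_comm]
  have sv : ∀ x : V4 k, σ ∘ (x ᵥ* H) = -(H *ᵥ (σ ∘ x)) := fun x => by
    funext i
    simp [mulVec, vecMul, dotProduct, sk, mul_comm]
  have fl : ∀ x ξ, Q (B.val *ᵥ x) (ξ ᵥ* (B⁻¹).val) → ξ = (σ ∘ x) ᵥ* H ∧ σ ∘ ξ = -(H *ᵥ x) :=
    fun x ξ q => by
      have e : ∀ i, (ξ ᵥ* (B⁻¹).val) ⬝ᵥ B.val *ᵥ Pi.single i 1 = ξ i := fun i => by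
        rw [conj_dot']; simp
      refine ⟨neg_injective (Eq.trans ?_ (sm x)), ?_⟩ <;> funext i
      · exact ((q _ _ (hε i)).1.trans (by rw [e]; rfl)).symm.trans (congrArg σ (hm x i).symm)
      · exact (congrArg σ (e i).symm).trans ((q _ _ (hε i)).2.trans (by rw [← hm]; rfl))
  have fl' : ∀ u φ, pb B T u φ → u ≠ 0 → φ ≠ 0 → ∃ s : k, s ≠ 0 ∧
      s⁻¹ • φ = (σ ∘ (s • u)) ᵥ* H ∧ σ ∘ (s⁻¹ • φ) = -(H *ᵥ (s • u)) := fun u φ a b c => by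
    obtain ⟨s, s0, q⟩ := o3 _ _ a (mulVec_ne B b) (vecMul_ne B⁻¹ c)
    exact ⟨s, s0, fl _ _ (by rwa [mulVec_smul, smul_vecMul])⟩
  have hd : H.det ≠ 0 := fun e => by
    obtain ⟨v, v0, v1⟩ := Matrix.exists_mulVec_eq_zero_iff.2 e
    obtain ⟨w, ψ, a1, a2, a3⟩ := (h.pb B).exists_opp v0 v0
    obtain ⟨s, s0, b, -⟩ := fl' w ψ a1 (right_ne_of_dot a2) (left_ne_of_dot a3)
    have := congrArg (· ⬝ᵥ v) b
    simp [← dotProduct_mulVec, v1, s0, a3] at this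
  refine ⟨B, H, hd, sk, fun u φ a b c => ?_⟩
  obtain ⟨s, s0, d1, d2⟩ := fl' u φ a b c
  refine ⟨s, s0, sub_eq_zero.1 (eq_zero_of_mulVec_eq_zero hd ?_), d1⟩
  rw [d1, sv, neg_inj] at d2
  rw [mulVec_sub, d2, sub_self]

theorem Fm.inv {H : M4 k} (h : Fm σ (TV G) H) (hG : Gen G) {g : G4 k} (hg : g ∈ G) :
    (g.val.map σ)ᵀ * H * g.val = H := by
  refine hG.ind (P := fun g => (g.val.map σ)ᵀ * H * g.val = H) (by simp) (fun a b ha hb => ?_)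
    (fun u φ a b c => ?_) hg
  · rw [Units.val_mul, Matrix.map_mul, transpose_mul]
    calc _ = (b.val.map σ)ᵀ * ((a.val.map σ)ᵀ * H * a.val) * b.val := by simp only [Matrix.mul_assoc]
      _ = H := by rw [ha, hb]
  obtain ⟨s, s0, d1, d2⟩ := h.flag u φ a b c
  have e : vecMulVec u φ = vecMulVec (s • u) (s⁻¹ • φ) := by simp [smul_smul, s0]
  have o : (s⁻¹ • φ) ⬝ᵥ (s • u) = 0 := by simp [a.1]
  rw [tv_val, e]
  generalize s • u = x at *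
  generalize s⁻¹ • φ = ξ at *
  have e1 : σ ∘ ξ = -(H *ᵥ x) := by
    rw [d2]
    nth_rewrite 2 [← d1]
    funext i
    simp [mulVec, vecMul, dotProduct, h.skew, mul_comm]
  have e2 : ((1 + vecMulVec x ξ).map σ)ᵀ = 1 + vecMulVec (σ ∘ ξ) (σ ∘ x) := by
    ext i j
    by_cases hij : i = j <;> simp [hij, vecMulVec_apply, mul_comm, one_apply, eq_comm]
  rw [e2, add_mul, Matrix.one_mul, vecMulVec_mul, ← d2, mul_add, Matrix.mul_one, add_mul,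
    mul_vecMulVec, vecMulVec_mul_vecMulVec, o, e1]
  simp

theorem Fm.trace {H : M4 k} (h : Fm σ (TV G) H) (hG : Gen G) {g : G4 k} (hg : g ∈ G) :
    σ g.val.trace = (g⁻¹).val.trace := by
  obtain ⟨U, rfl⟩ : IsUnit H := (isUnit_iff_isUnit_det H).2 (isUnit_iff_ne_zero.2 h.det)
  have e : (g.val.map σ)ᵀ = U.val * (g⁻¹).val * (U⁻¹).val := by
    conv_rhs => rw [← h.inv hG hg]
    simp [Matrix.mul_assoc]
  rw [← H20.LD.trace_conj' U (g⁻¹).val, ← e, trace_transpose]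
  exact AddMonoidHom.map_trace σ _

theorem trace_of (hG : Gen G) (h : TS K (TV G)) {B : G4 k} {H : M4 k} (f : Fm σ (pb B (TV G)) H)
    {g : G4 k} (hg : g ∈ G) : σ g.val.trace = (g⁻¹).val.trace := by
  rw [← tv_cg] at f
  have := f.trace (hG.cg B) (conj_mem_cg.2 hg)
  rwa [show (B⁻¹ * g * B)⁻¹ = B⁻¹ * g⁻¹ * B by group, Units.val_mul, Units.val_mul, Units.val_mul,
    Units.val_mul, H20.LD.trace_conj, H20.LD.trace_conj] at this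

/-! ### the symplectic case and the extension lemma -/

theorem sym_of (h : TS K T) (hn : ¬ HasND T) : H20.LD.Sym T := fun u φ w ψ h1 h2 h3 h4 h5 => by
  by_contra h6
  obtain ⟨z, χ, a1, a2, a3⟩ := h.exists_opp h4 h3
  exact hn ⟨w, ψ, u, φ, z, χ, h2, h1, a1, by simp [cyc, h5, h6, a2, a3]⟩

theorem ext_step (h : TS K T) (hS : H20.LD.Sym T) (hn : ND T u φ w ψ z χ) {y η : V4 k} (t : T y η)
    (a1 : φ ⬝ᵥ y ≠ 0) (a2 : η ⬝ᵥ u ≠ 0) : ∃ z χ, ND T u φ y η z χ := by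
  by_contra hc
  have E : ∀ z χ, T z χ → cyc u φ y η z χ + cyc u φ z χ y η = 0 := fun z χ a =>
    by_contra fun e => hc ⟨z, χ, hn.1, t, a, e⟩
  have key : ∀ {w ψ}, ND T u φ w ψ z χ → ψ ⬝ᵥ y * χ ⬝ᵥ u = χ ⬝ᵥ y * ψ ⬝ᵥ u := fun {w ψ} hn => by
    have e2 := E _ _ hn.2.1
    have e3 := E _ _ hn.2.2.1
    have e4 := E _ _ (h.conj hn.2.2.1 hn.2.1)
    have e5 := hn.2.2.2
    simp only [cyc, dotProduct_add, dotProduct_smul, sub_dotProduct, smul_dotProduct,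
      smul_eq_mul] at e2 e3 e4 e5
    apply mul_left_cancel₀ (mul_ne_zero a2 e5)
    linear_combination (ψ ⬝ᵥ u * χ ⬝ᵥ u) * e4 - (ψ ⬝ᵥ u * χ ⬝ᵥ u - ψ ⬝ᵥ z * (χ ⬝ᵥ u) ^ 2) * e2 +
      (ψ ⬝ᵥ u * χ ⬝ᵥ u * ψ ⬝ᵥ z * χ ⬝ᵥ w - χ ⬝ᵥ w * (ψ ⬝ᵥ u) ^ 2) * e3
  have e1 := key hn
  have e2 := key (w := w + (φ ⬝ᵥ w) • u) (ψ := ψ - (ψ ⬝ᵥ u) • φ) ⟨hn.1, h.conj hn.1 hn.2.1, hn.2.2.1, by
    convert hn.2.2.2 using 1
    simp only [cyc, dotProduct_add, dotProduct_smul, sub_dotProduct, smul_dotProduct,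
      smul_eq_mul, h.orth hn.1]
    ring⟩
  simp only [sub_dotProduct, smul_dotProduct, smul_eq_mul, h.orth hn.1] at e2
  exact mul_ne_zero (mul_ne_zero (nd_ne hS hn).2 a1) (nd_ne hS hn.flip).2
    (by linear_combination e1 - e2)

theorem ext2 (h : TS K T) (hS : H20.LD.Sym T) (hn : HasND T) : Ext2 T := by
  intro u φ w ψ h1 h2 a1 a2
  obtain ⟨y, η, ⟨z, χ, v, ω, b1⟩, b2, b3⟩ := h.xy (fun u φ => ∃ w ψ z χ, ND T u φ w ψ z χ)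
    (fun u φ ⟨_, _, _, _, a⟩ => a.1) (fun u φ w ψ a ⟨y, η, z, χ, b⟩ =>
      ⟨_, _, _, _, h.conj a b.1, h.conj a b.2.1, h.conj a b.2.2.1, by
        convert b.2.2.2 using 1
        have e : ∀ y η : V4 k, (η - (η ⬝ᵥ u) • φ) ⬝ᵥ (y + (φ ⬝ᵥ y) • u) = η ⬝ᵥ y := fun y η => by
          simp [h.orth a]; ring
        simp only [cyc, e]⟩)
    (by obtain ⟨u, φ, w, ψ, z, χ, a⟩ := hn
        exact ⟨u, φ, ⟨_, _, _, _, a⟩, right_ne_of_dot (nd_ne hS a).2, left_ne_of_dot (nd_ne hS a).1⟩)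
    u (right_ne_of_dot a2) φ (left_ne_of_dot a1)
  obtain ⟨z', χ', c⟩ := ext_step h hS b1 h1 b3 b2
  exact ext_step h hS c.rot h2 a1 a2

theorem jobTVS2 : JobTVS2.{u} := fun k _ _ G _ K _ hG h => ⟨fun hn g hg => by
  obtain ⟨B, H, f⟩ := exists_fm (σ := RingHom.id k) h (sym_of h hn)
    (fun u φ w ψ z χ a b c => eq_neg_of_add_eq_zero_left
      (by_contra fun e => hn ⟨u, φ, w, ψ, z, χ, a, b, c, e⟩))
    fun u φ w ψ a b => by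
      obtain ⟨n, hn⟩ := IsAlgClosed.exists_eq_mul_self (-(φ ⬝ᵥ w * ψ ⬝ᵥ u))
      exact ⟨n, rfl, hn.symm⟩
  exact (trace_of hG h f hg).symm, ext2 h⟩

end H57.LD4F
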