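import Cfsg.Agent.H20.LD4Mon
import Cfsg.Agent.S0215

/-! LD4, slot RF4: a monomial element outside the dihedral group. -/

set_option autoImplicit false
set_option linter.unusedVariables false
set_option linter.unusedSectionVars false

namespace H57.RF4

open Cfsg Matrix H20.LD

universe u v

section grp

variable {G : Type*} [Group G] [Finite G]

theorem exists_conj_into {P M : Subgroup G} (hP : IsPGroup 2 P) (hM : P ≤ M) (S : Sylow 2 G)
    (hS : (S : Subgroup G) ≤ M) : ∃ c ∈ M, ∀ x ∈ P, c⁻¹ * x * c ∈ (S : Subgroup G) := by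
  obtain ⟨R, hR⟩ := (hP.comap_subtype (K := M)).exists_le_sylow
  obtain ⟨g, rfl⟩ := MulAction.exists_smul_eq M (S.subtype hS) R
  rw [Sylow.smul_subtype] at hR
  refine ⟨g, g.2, fun x hx => ?_⟩
  obtain ⟨y, hy, e⟩ : x ∈ ((g • S : Sylow 2 G) : Subgroup G) := hR (x := ⟨x, hM hx⟩) hx
  rw [← e]
  have hy' : y ∈ (S : Subgroup G) := hy
  simpa [Subgroup.smul_def, mul_assoc] using hy'

theorem extremal {S : Sylow 2 G} {T : G} (h1 : ∀ a ∈ (S : Subgroup G), Commute a T) (g0 : G) :
    ∃ g : G, g * T * g⁻¹ = g0 * T * g0⁻¹ ∧ ∀ x ∈ (S : Subgroup G), Commute x (g0 * T * g0⁻¹) →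
      g⁻¹ * x * g ∈ (S : Subgroup G) := by
  obtain ⟨c, c1, c2⟩ := exists_conj_into (M := Subgroup.centralizer {T})
    (P := ((S : Subgroup G) ⊓ Subgroup.centralizer {g0 * T * g0⁻¹}).map
      (MulAut.conj g0⁻¹).toMonoidHom) ((S.isPGroup'.to_inf_left).map _) (by
      rintro _ ⟨x, ⟨-, hx⟩, rfl⟩
      replace hx := Subgroup.mem_centralizer_singleton_iff.1 hx
      rw [Subgroup.mem_centralizer_singleton_iff]
      change g0⁻¹ * x * g0⁻¹⁻¹ * T = T * (g0⁻¹ * x * g0⁻¹⁻¹)
      calc _ = g0⁻¹ * (x * (g0 * T * g0⁻¹)) * g0 := by group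
        _ = _ := by rw [hx]; group) S
    fun a ha => Subgroup.mem_centralizer_singleton_iff.2 (h1 a ha)
  rw [Subgroup.mem_centralizer_singleton_iff] at c1
  refine ⟨g0 * c, by rw [mul_assoc g0, c1]; group, fun x hx e => ?_⟩
  convert c2 _ ⟨x, ⟨hx, Subgroup.mem_centralizer_singleton_iff.2 e⟩, rfl⟩ using 1
  simp [mul_assoc]

theorem exists_conj_ne [IsSimpleGroup G] (hn : ¬ IsMulCommutative G) (S : Sylow 2 G) {T : G}
    (hT : T ∈ (S : Subgroup G)) (h1 : T ≠ 1) (h2 : T * T = 1) :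
    ∃ g, g * T * g⁻¹ ∈ (S : Subgroup G) ∧ g * T * g⁻¹ ≠ T := by
  by_contra hc
  push Not at hc
  have o : orderOf T = 2 := orderOf_eq_prime (by rwa [sq]) h1
  obtain ⟨N, n1, n2, n3⟩ := Cfsg.Agent.S0215.result S T o hT hc
  rcases n1.eq_bot_or_eq_top with rfl | rfl
  · rcases (inferInstance : (Subgroup.center G).Normal).eq_bot_or_eq_top with e | e
    · refine h1 (Subgroup.mem_bot.1 (e ▸ Subgroup.mem_center_iff.2 fun g => ?_))
      have := Subgroup.mem_bot.1 (n3 g)
      rw [mul_inv_eq_one, mul_inv_eq_iff_eq_mul] at this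
      exact this.symm
    · exact hn ⟨⟨fun a b => Subgroup.mem_center_iff.1 (e ▸ Subgroup.mem_top b) a⟩⟩
  · rw [Subgroup.card_top] at n2
    exact Nat.not_even_iff_odd.2 n2 (even_iff_two_dvd.2 (o ▸ orderOf_dvd_natCard T))

end grp

theorem perm_cases : ∀ σ : Equiv.Perm (Fin 4), σ * bl = bl * σ →
    (∀ j, (σ⁻¹ j).val < 2 ↔ j.val < 2) ∨
      ((∀ j, (σ⁻¹ j).val < 2 ↔ ¬ j.val < 2) ∧ σ 0 ≠ 0 ∧ σ 1 ≠ 0) := by decide

theorem perm_bl : ∀ σ : Equiv.Perm (Fin 4), σ * bl = bl * σ →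
    ((σ⁻¹ 0).val < 2 ↔ (σ⁻¹ 1).val < 2) := by decide

variable {k : Type u} [Field k] {X : Type u} [Group X] {Γ : Type v} [Group Γ] {p : ℕ}
  {ρ : X →* G4 k} {π : X →* Γ}

/-- the diagonal `(a, a, b, b)` -/
def dd (a b : k) : Fin 4 → k := fun j => if j.val < 2 then a else b

theorem conj_eq {x y : X} {σ : Equiv.Perm (Fin 4)} (m : Mon (ρ x) σ) {d : Fin 4 → k}
    (hy : (ρ y).val = diagonal d) : (ρ (x * y * x⁻¹)).val = diagonal fun i => d (σ⁻¹ i) := by
  rw [val_mul', val_mul', hy, map_inv, m.conj_diagonal]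

theorem jobRF4 : JobRF4.{u, v} := fun p k _ _ X _ _ Γ _ ρ π h hp S i F => by
  have := h.finite
  have := h.simple
  have h2 := h.two_ne hp
  have ii := F.ii
  obtain ⟨z, zS, l, hz⟩ := F.z
  replace hz : (ρ z).val = diagonal (dd (l * i) l) := by
    rw [hz, ← diagonal_smul]; congr 1; ext j; fin_cases j <;> simp [dd]
  have l0 : l ≠ 0 := by simpa [hz, dd] using (mon_of_diagonal hz).ne 2
  have i1 : l * i ≠ l := fun e => h2 (by
    have : i = 1 := mul_left_cancel₀ l0 (by rw [e, mul_one])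
    rw [this] at ii; linear_combination ii)
  have ht : (ρ (z * z)).val = diagonal (dd (-(l * l)) (l * l)) := by
    rw [val_mul', hz, diagonal_mul_diagonal]; congr 1; ext j
    simp only [dd]; split_ifs
    · linear_combination (l * l) * ii
    · rfl
  have ll : -(l * l) ≠ l * l := fun e => mul_ne_zero h2 (mul_ne_zero l0 l0) (by linear_combination -e)
  -- conjugates of `z` in `S` are diagonal
  have cz : ∀ g, π (g * z * g⁻¹) ∈ (S : Subgroup Γ) → ∃ e : Fin 4 → k,
      (ρ (g * z * g⁻¹)).val = diagonal e ∧ ((e 0 ≠ e 1 ∧ e 2 ≠ e 3) ∨ π (g * (z * z) * g⁻¹) = π (z * z)) :=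
    fun g hg => by
    obtain ⟨σ, -, m⟩ := F.ms _ hg
    have q0 : (ρ z).val * (ρ z).val = (l * i + l) • (ρ z).val + (-(l * i * l)) • 1 := by
      rw [hz]; ext a b
      by_cases e : a = b <;> simp [e, dd]
      split_ifs <;> ring
    have q : (ρ (g * z * g⁻¹)).val * (ρ (g * z * g⁻¹)).val =
        (l * i + l) • (ρ (g * z * g⁻¹)).val + (-(l * i * l)) • 1 := by
      rw [← val_mul', show g * z * g⁻¹ * (g * z * g⁻¹) = g * (z * z) * g⁻¹ by group, val_mul',
        val_mul', val_mul' z, q0, val_mul', val_mul', map_inv]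
      simp only [mul_add, add_mul, Matrix.mul_smul, Matrix.smul_mul, mul_one, val_mul_inv]
    obtain rfl := m.eq_one_of_quad (fun e => h2 (by
      have : i = -1 := mul_left_cancel₀ l0 (by linear_combination e)
      rw [this] at ii; linear_combination ii)) q
    obtain ⟨e, he⟩ : ∃ e, (ρ (g * z * g⁻¹)).val = diagonal e := ⟨_, m.eq_diagonal⟩
    have e1 : ∀ j, e j = l * i ∨ e j = l := fun j => by
      rw [he] at q
      have := congrFun (congrFun q j) j
      simp at this
      rcases mul_eq_zero.1 (show (e j - l * i) * (e j - l) = 0 by linear_combination this) with a | a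
      exacts [.inl (sub_eq_zero.1 a), .inr (sub_eq_zero.1 a)]
    have e2 := tr_conj (ρ := ρ) g z
    rw [tr, tr, he, hz, trace_diagonal, trace_diagonal, Fin.sum_univ_four, Fin.sum_univ_four] at e2
    simp only [dd] at e2
    norm_num at e2
    have i2 := sub_ne_zero.2 i1
    have i3 := mul_ne_zero h2 i2
    have sq : ∀ c : k, (∀ j, e j * e j = c * dd (-(l * l)) (l * l) j) →
        π (g * (z * z) * g⁻¹) = π (z * z) := fun c hc => h.eq_of_smul (c := c) (by
      rw [show g * (z * z) * g⁻¹ = g * z * g⁻¹ * (g * z * g⁻¹) by group, val_mul', he, ht,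
        diagonal_mul_diagonal, ← diagonal_smul]
      congr 1; ext j; exact hc j)
    refine ⟨e, he, ?_⟩
    rcases e1 0 with a | a <;> rcases e1 1 with b | b <;> rcases e1 2 with c | c <;>
      rcases e1 3 with d | d <;> rw [a, b, c, d] at e2 <;> first
      | exact Or.inl ⟨by rw [a, b]; first | exact i1 | exact i1.symm,
          by rw [c, d]; first | exact i1 | exact i1.symm⟩
      | exact absurd (by linear_combination e2) i2
      | exact absurd (by linear_combination -e2) i2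
      | exact absurd (by linear_combination e2) i3
      | exact absurd (by linear_combination -e2) i3
      | skip
    · refine Or.inr (sq 1 fun j => ?_)
      fin_cases j <;> simp [dd, a, b, c, d] <;> linear_combination (l * l) * ii
    · refine Or.inr (sq (-1) fun j => ?_)
      fin_cases j <;> simp [dd, a, b, c, d] <;> linear_combination (l * l) * ii
  by_cases hb : ∃ g e, π (g * z * g⁻¹) ∈ (S : Subgroup Γ) ∧ (ρ (g * z * g⁻¹)).val = diagonal e ∧
      e 0 ≠ e 1 ∧ e 2 ≠ e 3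
  · obtain ⟨g, e, gS, he, e1, e2⟩ := hb
    let A : Set Γ := {y | y ∈ (S : Subgroup Γ) ∧ ∃ g, y = π (g * z * g⁻¹)}
    have zA : π z ∈ A := ⟨zS, 1, by simp⟩
    have cA : ∀ a ∈ A, ∀ b ∈ A, Commute a b := by
      rintro _ ⟨a1, a, rfl⟩ _ ⟨b1, b, rfl⟩
      obtain ⟨d, hd, -⟩ := cz a a1
      obtain ⟨f, hf, -⟩ := cz b b1
      exact (show Commute (a * z * a⁻¹) (b * z * b⁻¹) from h.ext (by
        rw [val_mul' (a * z * a⁻¹), val_mul' (b * z * b⁻¹), hd, hf]; exact (commute_diagonal _ _).eq)).map π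
    have cD : ∀ b ∈ A, ∀ a ∈ Subgroup.closure A, Commute a b := fun b hb a ha =>
      Subgroup.mem_centralizer_singleton_iff.1 ((Subgroup.closure_le (Subgroup.centralizer {b})).2
        (fun a ha => Subgroup.mem_centralizer_singleton_iff.2 (cA a ha b hb)) ha)
    have dS : Subgroup.closure A ≤ S := (Subgroup.closure_le _).2 fun a ha => ha.1
    obtain ⟨n, n1, n2⟩ := wc_lemma (S := S) (D := Subgroup.closure A) dS (fun c hc a ha => by
      obtain ⟨c, rfl⟩ := h.surj c
      refine (Subgroup.closure_le ((Subgroup.closure A).comap (MulAut.conj (π c)).toMonoidHom)).2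
        ?_ ha
      rintro _ ⟨a1, a, rfl⟩
      exact Subgroup.subset_closure ⟨hc _ (Subgroup.subset_closure ⟨a1, a, rfl⟩), c * a, by
        simp [mul_assoc]⟩) (x := π z) (g := π g) (cD _ zA) (cD _ ⟨by simpa using gS, g, by simp⟩)
    obtain ⟨n, rfl⟩ := h.surj n
    obtain ⟨c, -, hc⟩ := h.exists_smul (g := g * z * g⁻¹) (g' := n * z * n⁻¹) (by simpa using n2)
    obtain ⟨f, hf, -⟩ := cz (n * g) (by
      simpa [mul_assoc] using dS ((n1 _).1 (Subgroup.subset_closure ⟨gS, g, rfl⟩)))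
    rw [he, ← diagonal_smul] at hc
    have k1 : (ρ n).val * diagonal (dd (l * i) l) = diagonal (c • e) * (ρ n).val := by
      rw [← hc, ← hz, ← val_mul', ← val_mul']; simp
    have k2 : (ρ n).val * diagonal e = diagonal f * (ρ n).val := by
      rw [← hf, ← he, ← val_mul', ← val_mul']; simp [mul_assoc]
    obtain ⟨σ, m⟩ := exists_mon_of_row (g := ρ n) fun a j j' b b' => by
      have a1 : dd (l * i) l j = dd (l * i) l j' :=
        (by_contra fun x => b (eq_zero_of_mul_diagonal k1 x) : _ = (c • e) a).trans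
          (by_contra fun x => b' (eq_zero_of_mul_diagonal k1 x) : _ = (c • e) a).symm
      have a2 : e j = e j' := (by_contra fun x => b (eq_zero_of_mul_diagonal k2 x) : _ = f a).trans
          (by_contra fun x => b' (eq_zero_of_mul_diagonal k2 x) : _ = f a).symm
      fin_cases j <;> fin_cases j' <;> first
        | rfl
        | exact absurd a2 e1
        | exact absurd a2.symm e1
        | exact absurd a2 e2
        | exact absurd a2.symm e2
        | exact absurd a1 i1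
        | exact absurd a1.symm i1
    refine ⟨n, σ, m, fun hσ => e1 ?_⟩
    rw [conj_eq m hz] at hc
    have c1 := congrFun (diagonal_injective hc)
    have c0 : c ≠ 0 := by
      rintro rfl
      have := c1 (σ 2)
      simp [dd, l0] at this
    apply mul_left_cancel₀ c0
    exact (c1 0).symm.trans (Eq.trans (by simp only [dd, perm_bl σ hσ]) (c1 1))
  exfalso
  have G3 : ∀ g : Γ, g * π z * g⁻¹ ∈ (S : Subgroup Γ) → g * π (z * z) * g⁻¹ = π (z * z) := fun g hg => by
    obtain ⟨g, rfl⟩ := h.surj g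
    obtain ⟨e, he, a | a⟩ := cz g (by simpa using hg)
    · exact absurd ⟨g, e, by simpa using hg, he, a⟩ hb
    · simpa using a
  have dich : ∀ x, π x ∈ (S : Subgroup Γ) → ∃ σ, Mon (ρ x) σ ∧ (Commute x z ∨
      (π x * π z * (π x)⁻¹ = (π z)⁻¹ ∧ ¬ Commute x (z * z) ∧ σ 0 ≠ 0 ∧ σ 1 ≠ 0)) := fun x hx => by
    obtain ⟨σ, s, m⟩ := F.ms _ hx
    refine ⟨σ, m, (perm_cases σ s).imp (fun a => mul_inv_eq_iff_eq_mul.1 (h.ext ?_))
      fun ⟨a, b⟩ => ⟨?_, fun c => ll ?_, b⟩⟩
    · rw [conj_eq m hz, hz]; congr 1; ext j; simp only [dd, a j]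
    · rw [eq_inv_iff_mul_eq_one, ← map_inv, ← map_mul, ← map_mul, ← map_mul]
      refine (h.ker _).2 ⟨l * i * l, ?_⟩
      rw [val_mul', conj_eq m hz, hz, diagonal_mul_diagonal, smul_one_eq_diagonal]
      congr 1; ext j; simp only [dd, a]; split_ifs <;> ring
    · have := conj_eq m ht
      rw [mul_inv_eq_iff_eq_mul.2 c.eq, ht] at this
      have t0 := congrFun (diagonal_injective this) 0
      simp only [dd, a 0] at t0
      simpa using t0
  set Z := π z with hZ
  set T := π (z * z) with hT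
  have TZ : T = Z * Z := map_mul π z z
  have T1 : T ≠ 1 := fun e => by
    obtain ⟨c, hc⟩ := (h.ker _).1 e
    rw [ht, smul_one_eq_diagonal] at hc
    have c1 := congrFun (diagonal_injective hc)
    exact ll ((c1 0).trans (c1 2).symm)
  have T2 : T * T = 1 := by
    rw [hT, ← map_mul]
    refine (h.ker _).2 ⟨l * l * (l * l), ?_⟩
    rw [val_mul', ht, diagonal_mul_diagonal, smul_one_eq_diagonal]
    congr 1; ext j; simp only [dd]; split_ifs <;> ring
  have TS : T ∈ (S : Subgroup Γ) := TZ ▸ mul_mem zS zS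
  have G1 : ∀ a ∈ (S : Subgroup Γ), Commute a T := fun a ha => by
    obtain ⟨x, rfl⟩ := h.surj a
    obtain ⟨σ, -, c | c⟩ := dich x ha
    · exact (c.mul_right c).map π
    · refine mul_inv_eq_iff_eq_mul.1 ?_
      rw [← inv_eq_of_mul_eq_one_right T2]
      conv_rhs => rw [TZ, _root_.mul_inv_rev, ← c.1]
      rw [inv_eq_of_mul_eq_one_right T2, TZ]; group
  have P : ∀ g : Γ, Commute Z (g * T * g⁻¹) → g * T * g⁻¹ = T := fun g0 c => by
    obtain ⟨g, g1, g2⟩ := extremal G1 g0
    have := G3 g⁻¹ (by simpa using g2 Z zS c)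
    rw [← g1]
    conv_lhs => rw [← this]
    group
  obtain ⟨g0, u1, u2⟩ := exists_conj_ne h.nab S TS T1 T2
  obtain ⟨g, g1, g2⟩ := extremal G1 g0
  rw [← g1] at u1 u2 g2
  obtain ⟨g, rfl⟩ := h.surj g
  obtain ⟨r, rS, c, hr⟩ := F.rf 0
  replace hr : (ρ r).val = diagonal fun j => c * if j = 0 then -1 else 1 := by
    rw [hr, rf, ← diagonal_smul]; rfl
  have c0 : c ≠ 0 := by simpa [hr] using (mon_of_diagonal hr).ne 1
  have hr' : (ρ r⁻¹).val = diagonal fun j => c⁻¹ * if j = 0 then -1 else 1 := by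
    rw [map_inv, coe_units_inv, hr]
    refine inv_eq_right_inv ?_
    rw [diagonal_mul_diagonal, ← diagonal_one]; congr 1; ext j; split_ifs <;> field_simp
  set u := g * (z * z) * g⁻¹ with hu
  have pu : π u = π g * T * (π g)⁻¹ := by rw [hu, map_mul, map_mul, map_inv]
  obtain ⟨σ, m, a | ⟨-, -, s0, s1⟩⟩ := dich u (pu ▸ u1)
  · exact u2 (P _ (pu ▸ (a.map π).symm))
  have ss : σ⁻¹ = σ := by
    have := (m.map_mul m).unique (h.mon_ker (by
      rw [map_mul, pu]
      calc _ = π g * (T * T) * (π g)⁻¹ := by group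
        _ = 1 := by rw [T2]; group))
    exact inv_eq_of_mul_eq_one_right this
  set t2 := u⁻¹ * r * u⁻¹⁻¹ * r⁻¹ with ht2
  have e2 : (ρ t2).val = diagonal fun j => (if σ j = 0 then -1 else 1) * if j = 0 then -1 else 1 := by
    rw [ht2, val_mul', conj_eq m.map_inv hr, hr', diagonal_mul_diagonal]
    congr 1; ext j; simp only [inv_inv]; field_simp
  have t2u : Commute u t2 := mul_inv_eq_iff_eq_mul.1 (h.ext (by
    rw [conj_eq m e2, e2]; congr 1; ext j
    rw [mul_comm, show σ (σ⁻¹ j) = j by simp, ss]))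
  have t2S : π t2 ∈ (S : Subgroup Γ) := by
    have := pu ▸ u1
    simp only [ht2, map_mul π _ r⁻¹, map_mul π _ u⁻¹⁻¹, map_mul π u⁻¹, map_inv]
    exact mul_mem (mul_mem (mul_mem (inv_mem this) rS) (inv_mem (inv_mem this))) (inv_mem rS)
  have t2z : Commute z t2 := h.ext (by
    rw [val_mul' z, val_mul' t2, hz, e2]; exact (commute_diagonal _ _).eq)
  have k1 : Commute (g⁻¹ * t2 * g) z := by
    obtain ⟨τ, -, b | b⟩ := dich (g⁻¹ * t2 * g) (by simpa using g2 _ t2S (pu ▸ (t2u.map π).symm))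
    · exact b
    · refine absurd ?_ b.2.1
      change _ = _
      calc _ = g⁻¹ * (t2 * u) * g := by rw [hu]; group
        _ = _ := by rw [← t2u.eq, hu]; group
  have k2 : Z * ((π g)⁻¹ * T * π g) * Z⁻¹ = (π g)⁻¹ * T * π g * T := by
    obtain ⟨v, hv⟩ := h.surj ((π g)⁻¹ * T * π g)
    obtain ⟨τ, -, b | b⟩ := dich v (hv ▸ g2 T TS (G1 _ u1).symm)
    · have := P (π g)⁻¹ (by simpa [hv] using (b.map π).symm)
      refine absurd ?_ u2
      conv_lhs => rw [← this]
      group
    · rw [← hv, ← inv_eq_of_mul_eq_one_right T2, TZ, _root_.mul_inv_rev, ← mul_assoc]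
      conv_rhs => rw [← b.1]
      have := b.1
      calc Z * π v * Z⁻¹ = (π v * Z * (π v)⁻¹)⁻¹⁻¹⁻¹ * π v * Z⁻¹ := by rw [this]; group
        _ = π v * Z⁻¹ * Z⁻¹ := by group
        _ = _ := by rw [this]
  have k3 : π g * Z * (π g)⁻¹ * T * (π g * Z * (π g)⁻¹)⁻¹ = T * π u := by
    calc _ = π g * (Z * ((π g)⁻¹ * T * π g) * Z⁻¹) * (π g)⁻¹ := by group
      _ = _ := by rw [k2, pu]; group
  have k4 : Commute (π g * Z * (π g)⁻¹) (π t2) := by
    have := (k1.map π).eq
    simp only [map_mul π _ g, map_mul π g⁻¹, map_inv] at this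
    change _ = _
    calc _ = π g * (Z * ((π g)⁻¹ * π t2 * π g)) * (π g)⁻¹ := by group
      _ = _ := by rw [hZ, ← this]; group
  have k5 : (π g * Z * (π g)⁻¹)⁻¹ * π r * (π g * Z * (π g)⁻¹) * T *
      ((π g * Z * (π g)⁻¹)⁻¹ * π r * (π g * Z * (π g)⁻¹))⁻¹ = T * π t2 := by
    generalize π g * Z * (π g)⁻¹ = w at k3 k4
    have e3 : π r * π u * (π r)⁻¹ = π u * π t2 := by simp [ht2, mul_assoc]
    calc _ = w⁻¹ * (π r * (w * T * w⁻¹) * (π r)⁻¹) * w := by group
      _ = w⁻¹ * (T * (π r * π u * (π r)⁻¹)) * w := by rw [k3, ← mul_assoc (π r), (G1 _ rS).eq]; group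
      _ = w⁻¹ * (w * T * w⁻¹ * π t2) * w := by rw [e3, k3, mul_assoc T]
      _ = T * (w⁻¹ * (π t2 * w)) := by group
      _ = _ := by rw [← k4.eq]; group
  have k6 := P _ (by rw [k5]; exact (G1 _ zS).mul_right (t2z.map π))
  rw [k5, mul_eq_left] at k6
  obtain ⟨b, hb'⟩ := (h.ker _).1 k6
  rw [e2, smul_one_eq_diagonal] at hb'
  have c1 := congrFun (diagonal_injective hb')
  have := (c1 0).trans (c1 1).symm
  simp [s0, s1] at this
  exact h2 (by linear_combination -this)

end H57.RF4
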