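import Cfsg.Agent.H20.LD4Mon

/-! LD4, slot RF6: the full torus. -/

set_option autoImplicit false
set_option linter.unusedVariables false
set_option linter.unusedSectionVars false

namespace H57.RF6

open Cfsg Matrix H20.LD

universe u v

variable {k : Type u} [Field k] {X : Type u} [Group X] {Γ : Type v} [Group Γ] {p : ℕ}
  {ρ : X →* G4 k} {π : X →* Γ}

theorem exists_sylow_between {G : Type*} [Group G] [Finite G] {P M : Subgroup G} (hP : IsPGroup 2 P)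
    (hM : P ≤ M) (S : Sylow 2 G) (hS : (S : Subgroup G) ≤ M) :
    ∃ R : Sylow 2 G, P ≤ R ∧ (R : Subgroup G) ≤ M := by
  obtain ⟨R, hR⟩ := (hP.comap_subtype (K := M)).exists_le_sylow
  obtain ⟨g, rfl⟩ := MulAction.exists_smul_eq M (S.subtype hS) R
  rw [Sylow.smul_subtype] at hR
  exact ⟨g • S, fun x hx => hR (x := ⟨x, hM hx⟩) hx, Sylow.smul_le hS g⟩

set_option maxRecDepth 100000 in
theorem exists_three : ∀ σ : Equiv.Perm (Fin 4), σ * bl ≠ bl * σ →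
    ∃ τ : Equiv.Perm (Fin 4), τ * bl = bl * τ ∧ (σ * τ) ^ 3 = 1 ∧ σ * τ ≠ 1 := by decide

theorem pow_four_of_comm : ∀ σ : Equiv.Perm (Fin 4), σ * bl = bl * σ → σ ^ 4 = 1 := by decide

theorem exists_perm_pair : ∀ i j : Fin 4, i ≠ j → ∃ σ : Equiv.Perm (Fin 4), σ 0 = i ∧ σ 1 = j := by
  decide

/-- the diagonal matrices of the group -/
def D (ρ : X →* G4 k) (d : Fin 4 → k) : Prop := ∃ x, (ρ x).val = diagonal d

theorem D.mul {d e : Fin 4 → k} (h : D ρ d) (h' : D ρ e) : D ρ (d * e) := by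
  obtain ⟨x, hx⟩ := h
  obtain ⟨y, hy⟩ := h'
  exact ⟨x * y, by rw [val_mul', hx, hy, diagonal_mul_diagonal]; rfl⟩

theorem D.ne {d : Fin 4 → k} (h : D ρ d) (i : Fin 4) : d i ≠ 0 := by
  obtain ⟨x, hx⟩ := h
  simpa [hx] using (mon_of_diagonal hx).ne i

theorem D.inv {d : Fin 4 → k} (h : D ρ d) : D ρ d⁻¹ := by
  obtain ⟨x, hx⟩ := id h
  refine ⟨x⁻¹, ?_⟩
  rw [map_inv, coe_units_inv, hx]
  exact inv_eq_right_inv (by
    rw [diagonal_mul_diagonal, ← diagonal_one]; congr 1; funext i; exact mul_inv_cancel₀ (h.ne i))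

/-- the lifts of the permutation matrices -/
def PL (ρ : X →* G4 k) : Prop := ∀ σ : Equiv.Perm (Fin 4), ∃ y, Mon (ρ y) σ ∧
  ∃ c : k, c ^ 8 = 1 ∧ ∀ j, (ρ y).val (σ j) j = c

theorem pl_of (h : R4 p ρ π) (hp : ∀ σ : Equiv.Perm (Fin 4), HasIn ρ π ⊤ (σ.permMatrix k)) :
    PL ρ := fun σ => by
  obtain ⟨y, -, c, hc⟩ := hp σ⁻¹
  have m : Mon (ρ y) σ := by simpa using mon_of_permMatrix hc
  have e : ∀ j, (ρ y).val (σ j) j = c := fun j => by
    simp [hc, Equiv.Perm.permMatrix, PEquiv.toMatrix_apply]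
  refine ⟨y, m, c, ?_, e⟩
  have := h.det y
  rw [m.det] at this
  simp only [e, Finset.prod_const, Finset.card_univ, Fintype.card_fin] at this
  rcases Int.units_eq_one_or (Equiv.Perm.sign σ) with s | s <;> rw [s] at this <;> simp at this
  · linear_combination (c ^ 4 + 1) * this
  · linear_combination (1 - c ^ 4) * this

theorem D.perm (hP : PL ρ) {d : Fin 4 → k} (h : D ρ d) (σ : Equiv.Perm (Fin 4)) : D ρ (d ∘ σ) := by
  obtain ⟨x, hx⟩ := h
  obtain ⟨y, m, -⟩ := hP σ⁻¹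
  exact ⟨y * x * y⁻¹, by rw [val_mul', val_mul', hx, map_inv, m.conj_diagonal]; rfl⟩

/-- the root subgroup of the torus -/
def Hs (ρ : X →* G4 k) : Subgroup kˣ where
  carrier := {e | D ρ ![e, e⁻¹, 1, 1]}
  one_mem' := ⟨1, by rw [map_one, Units.val_one, ← diagonal_one]; congr 1; ext i; fin_cases i <;> simp⟩
  mul_mem' {a b} ha hb := by
    change D ρ _
    convert D.mul ha hb using 1
    ext i; fin_cases i <;> simp [mul_comm]
  inv_mem' {a} ha := by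
    change D ρ _
    convert D.inv ha using 1
    ext i; fin_cases i <;> simp

theorem exists_n [Finite X] (hP : PL ρ) : ∃ n : ℕ,
    (∀ e : k, e ^ 2 ^ n = 1 → D ρ ![e, e⁻¹, 1, 1]) ∧
    ∀ d, D ρ d → ∀ m : ℕ, (∀ i, d i ^ 2 ^ m = 1) → ∀ i j, d i ^ 2 ^ n = d j ^ 2 ^ n := by
  have : Finite (Hs ρ) := Finite.of_injective (fun e : Hs ρ => e.2.choose) fun a b e => by
    have h1 := a.2.choose_spec
    rw [show a.2.choose = b.2.choose from e, b.2.choose_spec] at h1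
    exact Subtype.ext (Units.ext (by simpa using (congrFun (congrFun h1 0) 0).symm))
  have hN := Nat.card_pos (α := Hs ρ)
  have : NeZero (Nat.card (Hs ρ)) := ⟨hN.ne'⟩
  have hH : Hs ρ = rootsOfUnity (Nat.card (Hs ρ)) k := Subgroup.eq_of_le_of_card_ge
    (fun e he => congrArg Subtype.val (pow_card_eq_one' (x := (⟨e, he⟩ : Hs ρ))))
    (card_rootsOfUnity k _)
  obtain ⟨n, m, h1, h2⟩ := Nat.exists_eq_pow_mul_and_not_dvd hN.ne' 2 (by decide)
  refine ⟨n, fun e he => ?_, fun d hd l hl i j => ?_⟩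
  · have e0 : e ≠ 0 := by rintro rfl; simp at he
    have : Units.mk0 e e0 ∈ Hs ρ := by
      rw [hH, mem_rootsOfUnity, h2, pow_mul, Units.ext_iff]; simp [he]
    exact this
  by_cases hij : i = j
  · rw [hij]
  obtain ⟨σ, rfl, rfl⟩ := exists_perm_pair i j hij
  have h3 : Units.mk0 (d (σ 0) / d (σ 1)) (div_ne_zero (hd.ne _) (hd.ne _)) ∈ Hs ρ := by
    change D ρ _
    convert (hd.perm hP σ).mul ((hd.perm hP σ).perm hP (Equiv.swap 0 1)).inv using 1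
    ext i
    fin_cases i <;> simp [div_eq_mul_inv, hd.ne, Equiv.swap_apply_of_ne_of_ne]
  rw [hH, mem_rootsOfUnity, h2, Units.ext_iff] at h3
  have h4 : ((d (σ 0) / d (σ 1)) ^ 2 ^ n) ^ m = 1 := by simpa [pow_mul] using h3
  have h5 : ((d (σ 0) / d (σ 1)) ^ 2 ^ n) ^ 2 ^ l = 1 := by
    rw [pow_right_comm, div_pow, hl, hl, div_one, one_pow]
  have h6 : m.gcd (2 ^ l) = 1 :=
    (Nat.coprime_two_right.2 (Nat.odd_iff.2 (Nat.two_dvd_ne_zero.1 h1))).pow_right l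
  have h7 := pow_gcd_eq_one.2 ⟨h4, h5⟩
  rwa [h6, pow_one, div_pow, div_eq_one_iff_eq (pow_ne_zero _ (hd.ne _))] at h7

theorem tor (hP : PL ρ) {n : ℕ} (hn : ∀ e : k, e ^ 2 ^ n = 1 → D ρ ![e, e⁻¹, 1, 1])
    (d : Fin 4 → k) (h1 : ∀ i, d i ^ 2 ^ n = 1) (h2 : ∏ i, d i = 1) : D ρ d := by
  have n0 : ∀ i, d i ≠ 0 := fun i e => by simpa [e] using h1 i
  have a := hn _ (h1 0)
  have b := (hn (d 0 * d 1) (by rw [mul_pow, h1, h1, one_mul])).perm hP (Equiv.swap 0 2)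
  have c := (hn (d 3) (h1 3)).perm hP (Equiv.swap 0 3 * Equiv.swap 1 2)
  rw [Fin.prod_univ_four] at h2
  convert (a.mul b.inv).mul c using 1
  have := n0 0; have := n0 1; have := n0 3
  ext i
  fin_cases i <;> simp [Equiv.swap_apply_def] <;> field_simp
  linear_combination h2

/-- the Sylow subgroup -/
def Q (ρ : X →* G4 k) : Subgroup X where
  carrier := {x | (∃ σ, σ * bl = bl * σ ∧ Mon (ρ x) σ) ∧
    ∃ m : ℕ, ∀ i j, (ρ x).val i j = 0 ∨ (ρ x).val i j ^ 2 ^ m = 1}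
  one_mem' := ⟨⟨1, by simp, by rw [map_one]; exact mon_one⟩, 0, fun i j => by
    by_cases h : i = j <;> simp [h]⟩
  mul_mem' := by
    rintro x y ⟨⟨σ, s1, s2⟩, m, hm⟩ ⟨⟨τ, t1, t2⟩, n, hn⟩
    refine ⟨⟨σ * τ, by rw [mul_assoc, t1, ← mul_assoc, s1, mul_assoc], s2.map_mul t2⟩, m + n,
      fun i j => ?_⟩
    rw [val_mul', t2.mul_apply]
    refine (hm i (τ j)).imp (fun e => by rw [e, zero_mul]) fun e => ?_
    rw [mul_pow, pow_add, pow_mul, e, mul_comm (2 ^ m), pow_mul, (hn _ _).resolve_left (t2.ne j)]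
    simp
  inv_mem' := by
    rintro x ⟨⟨σ, s1, s2⟩, m, hm⟩
    refine ⟨⟨σ⁻¹, (show Commute σ bl from s1).inv_left, s2.map_inv⟩, m, fun i j => ?_⟩
    by_cases e : j = σ i
    · rw [e, map_inv, s2.inv_apply, inv_pow, (hm _ _).resolve_left (s2.ne i), inv_one]
      exact Or.inr rfl
    · exact Or.inl (s2.map_inv i j fun a => e (by rw [a]; simp))

theorem mem_Q_of_diag {x : X} {d : Fin 4 → k} (hx : (ρ x).val = diagonal d) {m : ℕ}
    (hm : ∀ i, d i ^ 2 ^ m = 1) : x ∈ Q ρ :=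
  ⟨⟨1, by simp, mon_of_diagonal hx⟩, m, fun i j => by
    by_cases e : i = j <;> simp [hx, e, hm]⟩

theorem mem_Q_of_pl {y : X} {σ : Equiv.Perm (Fin 4)} (hσ : σ * bl = bl * σ) (m : Mon (ρ y) σ) {c : k}
    (hc : c ^ 8 = 1) (e : ∀ j, (ρ y).val (σ j) j = c) : y ∈ Q ρ :=
  ⟨⟨σ, hσ, m⟩, 3, fun i j => by
    by_cases a : i = σ j
    · rw [a, e]; exact Or.inr hc
    · exact Or.inl (m i j a)⟩

theorem Q_two (h : R4 p ρ π) : IsPGroup 2 (Q ρ) := fun x => by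
  obtain ⟨⟨σ, s1, s2⟩, -⟩ := x.2
  obtain ⟨-, m, hm⟩ := (Q ρ).pow_mem x.2 4
  have s3 := s2.map_pow 4
  rw [pow_four_of_comm σ s1] at s3
  refine ⟨m + 2, Subtype.ext (h.eq_one ?_)⟩
  rw [Subgroup.coe_pow, pow_add, mul_comm, pow_mul, val_pow', show 2 ^ 2 = 4 from rfl,
    s3.eq_diagonal, diagonal_pow, ← diagonal_one]
  congr 1
  funext i
  exact (hm i i).resolve_left (s3.ne i)

theorem diag_pow {x : X} {d : Fin 4 → k} (hx : (ρ x).val = diagonal d) {m : ℕ} (e : x ^ m = 1)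
    (i : Fin 4) : d i ^ m = 1 := by
  have := congrFun (congrFun (val_pow' (ρ := ρ) x m) i) i
  rw [e, hx, diagonal_pow] at this
  simpa using this.symm

theorem exists_S [Finite X] (h : R4 p ρ π) (hP : PL ρ) (S : Sylow 2 Γ)
    (hS : ∀ x, π x ∈ S → ∃ σ, Mon (ρ x) σ) : ∃ R : Sylow 2 Γ, (R : Subgroup Γ).comap π = Q ρ := by
  have := h.finite
  obtain ⟨R, r1, r2⟩ := exists_sylow_between ((Q_two h).map π) (M := (monX ρ).map π)
    (Subgroup.map_mono fun x hx => hx.1.imp fun σ a => a.2) S fun y hy => by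
      obtain ⟨x, rfl⟩ := h.surj y
      exact h.mem_map_monX.2 (hS x hy)
  have q : Q ρ ≤ (R : Subgroup Γ).comap π := Subgroup.map_le_iff_le_comap.1 r1
  have t := h.isPGroup_comap R.isPGroup'
  refine ⟨R, le_antisymm (fun x hx => ?_) q⟩
  obtain ⟨σ, m⟩ := h.mem_map_monX.1 (r2 hx)
  have hσ : σ * bl = bl * σ := by_contra fun hn => by
    obtain ⟨τ, t1, t2, t3⟩ := exists_three σ hn
    obtain ⟨y, y1, c, y2, y3⟩ := hP τ
    obtain ⟨l, hl⟩ := t ⟨_, mul_mem hx (q (mem_Q_of_pl t1 y1 y2 y3))⟩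
    have := (m.map_mul y1).map_pow (2 ^ l)
    rw [show (x * y) ^ 2 ^ l = 1 from congrArg Subtype.val hl, map_one] at this
    have h6 : Nat.gcd 3 (2 ^ l) = 1 := (by decide : Nat.Coprime 3 2).pow_right l
    exact t3 (by simpa [h6] using pow_gcd_eq_one.2 ⟨t2, this.unique mon_one⟩)
  obtain ⟨y, y1, c, y2, y3⟩ := hP σ
  have yQ := mem_Q_of_pl hσ y1 y2 y3
  have m1 := m.map_mul y1.map_inv
  rw [mul_inv_cancel] at m1
  obtain ⟨l, hl⟩ := t ⟨_, mul_mem hx (inv_mem (q yQ))⟩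
  simpa using (Q ρ).mul_mem (mem_Q_of_diag m1.eq_diagonal
    (diag_pow m1.eq_diagonal (congrArg Subtype.val hl))) yQ

theorem Q_dec (hP : PL ρ) {x : X} (hx : x ∈ Q ρ) : ∃ (d : Fin 4 → k) (c : k) (m : ℕ), D ρ d ∧
    (∀ i, d i ^ 2 ^ m = 1) ∧ c ^ 8 = 1 ∧ ∀ i j, (ρ x).val i j = 0 ∨ (ρ x).val i j = d i * c := by
  obtain ⟨σ, s1, s2⟩ := hx.1
  obtain ⟨y, y1, c, y2, y3⟩ := hP σ
  have m1 := s2.map_mul y1.map_inv
  rw [mul_inv_cancel] at m1
  obtain ⟨-, m, hm⟩ := (Q ρ).mul_mem hx ((Q ρ).inv_mem (mem_Q_of_pl s1 y1 y2 y3))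
  refine ⟨_, c, m, ⟨_, m1.eq_diagonal⟩, fun i => (hm i i).resolve_left (m1.ne i), y2, fun i j => ?_⟩
  by_cases a : i = σ j
  · refine Or.inr ?_
    conv_lhs => rw [← inv_mul_cancel_right x y, val_mul', y1.mul_apply, y3, ← a]
  · exact Or.inl (s2 i j a)

theorem exists_diag_eq {g : G4 k} {σ : Equiv.Perm (Fin 4)} (m : Mon g σ) {v : k} {a b : V4 k}
    (e : g.val = v • 1 + vecMulVec a b) : ∃ i, g.val i i = v := by
  by_contra hn
  push Not at hn
  have h1 : ∀ i, a i ≠ 0 ∧ b i ≠ 0 := fun i => mul_ne_zero_iff.1 fun h0 =>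
    hn i (by simp [e, vecMulVec_apply, h0])
  have h2 : ∀ i, i ≠ 0 → i = σ 0 := fun i hi =>
    m.eq_of_ne (by simp [e, vecMulVec_apply, hi, h1])
  exact absurd ((h2 1 (by decide)).trans (h2 2 (by decide)).symm) (by decide)

theorem jobRF6 : JobRF6.{u, v} := fun p k _ _ X _ _ Γ _ ρ π h hp i F => by
  have hP := pl_of h F.perm
  obtain ⟨S0, hS0⟩ := F.syl
  obtain ⟨S, hS⟩ := exists_S h hP S0 hS0
  obtain ⟨n, n1, n2⟩ := exists_n hP
  have val : ∀ x : (S : Subgroup Γ).comap π, ∃ v : kˣ, ∀ i j, (ρ x).val i j ≠ 0 →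
      (ρ x).val i j ^ 2 ^ n = v := fun x => by
    obtain ⟨d, c, m, a1, a2, a3, a4⟩ := Q_dec hP (hS ▸ x.2 : x.1 ∈ Q ρ)
    refine ⟨Units.mk0 ((d 0 * c) ^ 2 ^ n) (pow_ne_zero _ (mul_ne_zero (a1.ne 0)
      (by rintro rfl; simp at a3))), fun i j e => ?_⟩
    rw [(a4 i j).resolve_left e, Units.val_mk0, mul_pow, mul_pow, n2 d a1 m a2 i 0]
  choose δ hδ using val
  let δ' : (S : Subgroup Γ).comap π →* kˣ := MonoidHom.mk' δ fun x y => Units.ext (by
    obtain ⟨σ, -, s⟩ := (hS ▸ x.2 : x.1 ∈ Q ρ).1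
    obtain ⟨τ, -, t⟩ := (hS ▸ y.2 : y.1 ∈ Q ρ).1
    rw [Units.val_mul, ← hδ x _ _ (s.ne (τ 0)), ← hδ y _ _ (t.ne 0),
      ← hδ (x * y) _ _ ((s.map_mul t).ne 0), ← mul_pow, ← t.mul_apply, ← val_mul']
    rfl)
  have key : ∀ d, D ρ d → ∀ m : ℕ, (∀ i, d i ^ 2 ^ m = 1) → ∀ i, d i ^ 2 ^ n = 1 := fun d hd m hm => by
    have l0 := hd.ne 1
    have dt : ∏ i, d i = 1 := by
      obtain ⟨x, hx⟩ := hd
      rw [← det_diagonal, ← hx, h.det]
    have r : ∀ i, (d 1 / d i) ^ 2 ^ n = 1 := fun i => by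
      rw [div_pow, n2 d hd m hm 1 i, div_self (pow_ne_zero _ (hd.ne i))]
    have r4 : ((d 1)⁻¹ ^ 4) ^ 2 ^ n = 1 := by
      have := congrArg (· ^ 2 ^ n) dt
      simp only [← Finset.prod_pow, n2 d hd m hm _ 1, Finset.prod_const, Finset.card_univ,
        Fintype.card_fin, one_pow] at this
      rw [pow_right_comm, inv_pow, inv_pow, this, inv_one]
    rw [Fin.prod_univ_four] at dt
    obtain ⟨x, hx⟩ := hd.mul (tor hP n1 ![(d 1)⁻¹ ^ 4 * (d 1 / d 0), 1, d 1 / d 2, d 1 / d 3]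
      (fun i => by fin_cases i <;> simp only [mul_pow, r, r4, one_pow, mul_one, cons_val_zero,
        cons_val_one, cons_val, Fin.zero_eta, Fin.mk_one, Fin.reduceFinMk])
      (by
        have := hd.ne 0; have := hd.ne 2; have := hd.ne 3
        simp [Fin.prod_univ_four]; field_simp; linear_combination -dt))
    replace hx : (ρ x).val = diagonal ![(d 1)⁻¹ ^ 3, d 1, d 1, d 1] := by
      rw [hx]; congr 1; ext i
      have := hd.ne 0; have := hd.ne 2; have := hd.ne 3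
      fin_cases i <;> simp <;> field_simp
    have xQ : x ∈ (S : Subgroup Γ).comap π := hS ▸ mem_Q_of_diag hx (m := m) fun i => by
      fin_cases i <;> simp [hm]
      rw [pow_right_comm, hm, one_pow]
    have dx : (δ' ⟨x, xQ⟩ : k) = d 1 ^ 2 ^ n := by
      rw [← show _ = (δ' ⟨x, xQ⟩ : k) from hδ ⟨x, xQ⟩ 1 1 (by simp [hx, l0])]; simp [hx]
    have := h.tr_lemma S δ' xQ fun g j hg => Units.ext (by
      obtain ⟨σ, -, s⟩ := (hS ▸ hg : g * x ^ j * g⁻¹ ∈ Q ρ).1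
      have e : (ρ (x ^ j)).val = d 1 ^ j • 1 +
          vecMulVec (Pi.single 0 (((d 1)⁻¹ ^ 3) ^ j - d 1 ^ j)) (Pi.single 0 1) := by
        rw [val_pow', hx, diagonal_pow]
        ext a b
        fin_cases a <;> fin_cases b <;> simp [vecMulVec_apply]
      obtain ⟨a, ha⟩ := exists_diag_eq s (v := d 1 ^ j) (by
        rw [val_mul', val_mul', e, mul_add, add_mul, conj_vecMulVec, Matrix.mul_smul, mul_one,
          Matrix.smul_mul, map_inv, val_mul_inv])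
      rw [Units.val_pow_eq_pow_val, dx,
        ← show _ = (δ' ⟨_, hg⟩ : k) from hδ ⟨_, hg⟩ a a (by rw [ha]; exact pow_ne_zero _ l0), ha,
        pow_right_comm])
    intro i
    rw [n2 d hd m hm i 1, ← dx, this, Units.val_one]
  have n3 : 3 ≤ n := by
    obtain ⟨r, -, c, hc⟩ := F.rf
    have c4 : c ^ 4 = -1 := by
      have := h.det r
      rw [hc, det_smul, rf, det_diagonal, Fin.prod_univ_four] at this
      simp at this
      linear_combination -this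
    have := key (fun j => c * if j = 0 then -1 else 1) ⟨r, by rw [hc, rf, ← diagonal_smul]; rfl⟩ 3
      (fun i => by split_ifs <;> linear_combination (c ^ 4 - 1) * c4) 1
    by_contra hn
    obtain ⟨l, hl⟩ := Nat.exists_eq_add_of_le (show n ≤ 2 by omega)
    refine h.two_ne hp ?_
    rw [show 4 = 2 ^ n * 2 ^ l by rw [← pow_add, ← hl]; rfl, pow_mul,
      show c ^ 2 ^ n = 1 by simpa using this, one_pow] at c4
    linear_combination c4
  refine ⟨S, n, n3, F.perm, tor hP n1, fun x => ?_⟩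
  change x ∈ (S : Subgroup Γ).comap π ↔ _
  rw [hS]
  refine ⟨fun hx => ⟨hx.1, fun i j => ?_⟩, fun hx => ⟨hx.1, n, hx.2⟩⟩
  obtain ⟨d, c, m, a1, a2, a3, a4⟩ := Q_dec hP hx
  obtain ⟨l, rfl⟩ := Nat.exists_eq_add_of_le n3
  exact (a4 i j).imp_right fun e => by
    rw [e, mul_pow, key d a1 m a2, pow_add, pow_mul, show c ^ 2 ^ 3 = 1 from a3, one_pow, one_mul]

end H57.RF6
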