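import Cfsg.Agent.H57.LD4TV0a

/-! LD4, slot TV0: the system of transvections of an irreducible quasisimple group. -/

set_option autoImplicit false
set_option linter.unusedVariables false
set_option linter.unusedSectionVars false

namespace H57.LD40

open Cfsg Matrix H20.LD

universe u v

variable {k : Type u} [Field k] {X : Type u} [Group X] {Γ : Type v} [Group Γ] {p : ℕ}
  {ρ : X →* G4 k} {π : X →* Γ} {u w φ ψ : V4 k}

/-- a set of flags of the group, invariant under conjugation, with a nontrivial member -/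
structure Inv (G : Subgroup (G4 k)) (S : V4 k → V4 k → Prop) : Prop where
  le : ∀ u φ, S u φ → TV G u φ
  conj : ∀ g ∈ G, ∀ u φ, S u φ → S (g.val *ᵥ u) (φ ᵥ* (g⁻¹).val)
  ne : ∃ u φ, S u φ ∧ u ≠ 0 ∧ φ ≠ 0

variable {S : V4 k → V4 k → Prop}

theorem Inv.eq_top (h : R4 p ρ π) (hS : Inv ρ.range S) (H : Subgroup X)
    (hH : ∀ x u φ, S u φ → u ≠ 0 → φ ≠ 0 → (ρ x).val = 1 + vecMulVec u φ → x ∈ H) : H = ⊤ := by
  obtain ⟨u, φ, a1, a2, a3⟩ := hS.ne
  obtain ⟨o, _, ⟨x, rfl⟩, e⟩ := hS.le u φ a1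
  refine eq_top_iff.2 ((h.normal_eq_top H.normalCore (x := x) (fun g => ?_) fun h1 => ?_).ge.trans
    H.normalCore_le)
  · refine hH _ _ _ (hS.conj _ ⟨g, rfl⟩ u φ a1) (mulVec_ne _ a2) (vecMul_ne _ a3) ?_
    rw [map_mul, map_mul, map_inv, show ρ x = tv u φ o from Units.ext e, conj_tv_val]
  · obtain ⟨c, hc⟩ := (h.ker x).1 h1
    have e1 := congrArg (· *ᵥ u) (e.symm.trans hc)
    simp only [tv_mulVec, o, zero_smul, add_zero, smul_mulVec, one_mulVec] at e1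
    obtain rfl : 1 = c := smul_left_injective k a2 (by simpa using e1)
    simp [hc, a2, a3] at e

theorem Inv.irr (h : R4 p ρ π) (hS : Inv ρ.range S) (A : Submodule k (V4 k))
    (hA : ∀ u φ, S u φ → φ ≠ 0 → ∀ a ∈ A, (φ ⬝ᵥ a) • u ∈ A) : A = ⊥ ∨ A = ⊤ := by
  let H : Subgroup X :=
    { carrier := {x | ∀ a, a ∈ A ↔ (ρ x).val *ᵥ a ∈ A}
      one_mem' := fun a => by simp
      mul_mem' := fun {x y} hx hy a => by rw [val_mul', ← mulVec_mulVec, ← hx, ← hy]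
      inv_mem' := fun {x} hx a => by rw [hx ((ρ x⁻¹).val *ᵥ a)]; simp }
  have := hS.eq_top h H fun x u φ a1 a2 a3 e a => by
    rw [e, tv_mulVec]
    refine ⟨fun ha => A.add_mem ha (hA u φ a1 a3 a ha), fun ha => ?_⟩
    simpa [(hS.le u φ a1).1] using A.sub_mem ha (hA u φ a1 a3 _ ha)
  exact h.irr A fun x a ha => ((this ▸ Subgroup.mem_top x : x ∈ H) a).1 ha

theorem Inv.xy (h : R4 p ρ π) (hS : Inv ρ.range S) (hu : u ≠ 0) (hφ : φ ≠ 0) :
    ∃ w ψ, S w ψ ∧ φ ⬝ᵥ w ≠ 0 ∧ ψ ⬝ᵥ u ≠ 0 := by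
  have cj : ∀ {u φ w ψ}, S u φ → S w ψ → S (w + (φ ⬝ᵥ w) • u) (ψ - (ψ ⬝ᵥ u) • φ) :=
    fun {u φ w ψ} a b => by
      have := hS.conj _ (hS.le _ _ a).mem _ _ b
      rw [tv_val, tv_inv_val, tv_mulVec, vecMul_tv] at this
      simpa [sub_eq_add_neg] using this
  by_contra hc
  push Not at hc
  obtain ⟨u0, φ0, s0, s1, s2⟩ := hS.ne
  obtain ⟨y, η, y1, y2, y3⟩ : ∃ y η, S y η ∧ η ≠ 0 ∧ φ ⬝ᵥ y ≠ 0 := by
    by_contra h1
    push Not at h1
    rcases hS.irr h (LinearMap.ker (dotProductBilin k k φ)) (fun w ψ a b v _ => by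
      simp [h1 w ψ a b]) with e | e
    · exact s1 ((Submodule.eq_bot_iff _).1 e u0 (by simp [h1 u0 φ0 s0 s2]))
    · obtain ⟨a, ha⟩ := exists_dot_one hφ
      have : a ∈ LinearMap.ker (dotProductBilin k k φ) := e ▸ Submodule.mem_top
      simp [dotProduct_comm φ, ha] at this
  obtain ⟨x, ξ, x1, x2, x3⟩ : ∃ x ξ, S x ξ ∧ x ≠ 0 ∧ ξ ⬝ᵥ u ≠ 0 := by
    by_contra h1
    push Not at h1
    let W : Submodule k (V4 k) :=
      { carrier := {z | ∀ w ψ, S w ψ → w ≠ 0 → ψ ⬝ᵥ z = 0}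
        add_mem' := fun ha hb w ψ a b => by rw [dotProduct_add, ha w ψ a b, hb w ψ a b, add_zero]
        zero_mem' := fun _ _ _ _ => by simp
        smul_mem' := fun c x hx w ψ a b => by rw [dotProduct_smul, hx w ψ a b, smul_zero] }
    rcases hS.irr h W (fun w ψ a b v hv => by
      by_cases w0 : w = 0
      · simp [w0]
      · simp [hv w ψ a w0]) with e | e
    · exact hu ((Submodule.eq_bot_iff _).1 e u h1)
    · obtain ⟨a, ha⟩ := exists_dot_one s2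
      have := (e ▸ Submodule.mem_top : a ∈ W) u0 φ0 s0 s1
      simp [dotProduct_comm φ0, ha] at this
  have key : ∀ w ψ, S w ψ → ψ ⬝ᵥ u ≠ 0 → η ⬝ᵥ w = 0 := fun w ψ a b => by
    have b0 : φ ⬝ᵥ w = 0 := by_contra fun e => b (hc w ψ a e)
    simpa [hc y η y1 y3, b] using hc _ _ (cj a y1) (by simpa [b0] using y3)
  rcases hS.irr h (Submodule.span k {w | ∃ ψ, S w ψ ∧ ψ ⬝ᵥ u ≠ 0}) (fun v χ a b z hz => by
    by_cases c : χ ⬝ᵥ u = 0
    swap
    · exact Submodule.smul_mem _ _ (Submodule.subset_span ⟨χ, a, c⟩)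
    induction hz using Submodule.span_induction with
    | mem w hw =>
      obtain ⟨ψ, d1, d2⟩ := hw
      simpa using Submodule.sub_mem _
        (Submodule.subset_span (s := {w | ∃ ψ, S w ψ ∧ ψ ⬝ᵥ u ≠ 0})
          ⟨_, cj a d1, by simpa [c] using d2⟩) (Submodule.subset_span ⟨ψ, d1, d2⟩)
    | zero => simp
    | add a b _ _ ha hb => rw [dotProduct_add, add_smul]; exact Submodule.add_mem _ ha hb
    | smul c a _ ha =>
      rw [dotProduct_smul, smul_eq_mul, mul_smul]; exact Submodule.smul_mem _ _ ha) with e | e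
  · exact x2 (Submodule.span_eq_bot.1 e x ⟨ξ, x1, x3⟩)
  · obtain ⟨a, ha⟩ := exists_dot_one y2
    have : a ∈ LinearMap.ker (dotProductBilin k k η) := (Submodule.span_le.2 (by
      rintro w ⟨ψ, d1, d2⟩; exact key w ψ d1 d2)) (e ▸ Submodule.mem_top)
    simp [dotProduct_comm η, ha] at this

theorem jobTV0 : JobTV0.{u, v} := fun p k _ _ X _ _ Γ _ ρ π h hn => by
  have := h.char
  have := Fact.mk h.prime
  have : Finite ρ.range := Finite.of_surjective _ ρ.rangeRestrict_surjective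
  simp only [NoTv, not_forall, not_not] at hn
  obtain ⟨x, hx⟩ := hn
  obtain ⟨u, φ, o, hu, hφ, e⟩ := hx.exists_tv
  have h1 : TV ρ.range u φ := TV.of_mem (h := o) ⟨x, e⟩
  have hT : Inv ρ.range (TV ρ.range) := ⟨fun _ _ => id, fun g hg _ _ a => a.conj hg, u, φ, h1, hu, hφ⟩
  have hG : Gen ρ.range := by
    rintro _ ⟨y, rfl⟩
    have := hT.eq_top h ((Subgroup.closure {g | g ∈ ρ.range ∧ IsTv g}).comap ρ)
      fun x u φ a b c e => Subgroup.subset_closure ⟨⟨x, rfl⟩, by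
        rw [show ρ x = tv u φ a.1 from Units.ext e]; exact isTv_tv a.1 b c⟩
    exact (this ▸ Subgroup.mem_top y : y ∈ Subgroup.comap ρ _)
  have hxy : XY (TV ρ.range) := fun S s1 s2 s3 u hu φ hφ =>
    Inv.xy h ⟨s1, fun g hg => hG.ind
      (P := fun g => ∀ u φ, S u φ → S (g.val *ᵥ u) (φ ᵥ* (g⁻¹).val)) (by simp)
      (fun a b ha hb u φ s => by simpa using ha _ _ (hb _ _ s))
      (fun u φ a _ _ w ψ s => by
        rw [tv_val, tv_inv_val, tv_mulVec, vecMul_tv]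
        simpa [sub_eq_add_neg] using s2 u φ w ψ a s) hg, s3⟩ hu hφ
  refine ⟨hG, fun hp => sw (h.two_eq hp) _, ?_⟩
  set G := ρ.range
  obtain ⟨w, ψ, a1, a2, a3⟩ := hT.xy h hu hφ
  obtain ⟨K, k1, -⟩ := pair (p := p) h1 a1 a2 a3
  have key : ∀ w ψ, TV G w ψ → w ≠ 0 → ψ ≠ 0 → ∀ x, x ∈ K ↔ TV G (x • w) ψ := by
    intro w ψ b1 b2 b3 x
    obtain ⟨u', φ', c1, c2, c3⟩ := Inv.xy h
      (S := fun u φ => TV G u φ ∧ ∀ x, x ∈ K ↔ TV G (x • u) φ) ⟨fun _ _ => And.left,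
      fun g hg u φ h => ⟨h.1.conj hg, fun x => (h.2 x).trans ⟨fun h => by
        simpa [mulVec_smul] using h.conj hg, fun h => by
        simpa [mulVec_smul] using h.conj (G.inv_mem hg)⟩⟩, u, φ, ⟨h1, k1⟩, hu, hφ⟩ b2 b3
    obtain ⟨K', l1, l2, -⟩ := pair (p := p) b1 c1.1 c2 c3
    rw [c1.2, ← l2, l1]
  refine ⟨K, ?_, ⟨tb G, hT.ne, hxy, fun A hA => ?_, fun A hA => ?_, fun {u φ a} b1 ha => ?_,
    fun b1 b2 b3 b4 => (key _ _ b1 b3 b4 _).2 b2⟩, or_iff_not_imp_right.2 fun hc u φ w ψ b1 b2 => ?_⟩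
  · refine Finite.of_injective (fun x : K => (⟨_, ((k1 x).1 x.2).mem⟩ : G)) fun a b e => ?_
    obtain ⟨y, hy⟩ := exists_dot_one hφ
    have := congrArg (fun g : G => g.1.val *ᵥ y) e
    simp only [tv_val, tv_mulVec, dotProduct_comm φ, hy, one_smul, add_right_inj] at this
    exact Subtype.ext (smul_left_injective k hu this)
  · refine hT.irr h A fun u φ a _ v hv => ?_
    rcases hA u φ a with b | b
    · exact A.smul_mem _ b
    · simp [b v hv]
  · refine h.irr' A fun x => hG.ind (P := fun g => ∀ a ∈ A, a ᵥ* g.val ∈ A) (by simp)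
      (fun a b ha hb v hv => by rw [Units.val_mul, ← vecMul_vecMul]; exact hb _ (ha _ hv))
      (fun u φ a _ _ v hv => ?_) ⟨x, rfl⟩
    rw [tv_val, vecMul_tv]
    rcases hA u φ a with b | b
    · exact A.add_mem hv (A.smul_mem _ b)
    · simp [dotProduct_comm v, b v hv, hv]
  · by_cases c1 : u = 0
    · simpa [c1] using b1
    by_cases c2 : φ = 0
    · rw [(tb G).smul_iff]; simpa [c2] using b1
    exact (key _ _ b1 c1 c2 a).1 ha
  by_cases c1 : φ ⬝ᵥ w = 0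
  · simp [c1]
  by_cases c2 : ψ ⬝ᵥ u = 0
  · simp [c2]
  obtain ⟨K', l1, -, l3⟩ := pair (p := p) b1 b2 c1 c2
  obtain rfl : K' = K := Subfield.ext fun x => by
    rw [l1, key _ _ b1 (right_ne_of_dot c2) (left_ne_of_dot c1)]
  exact l3.imp_right fun a => a.resolve_right fun b =>
    hc ⟨by_contra fun hp => h.two_ne hp b.1, b.2⟩

end H57.LD40
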