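import Cfsg.Agent.H20.LD4Tv

/-! LD4, slot TV0: two opposite transvection groups in dimension four. -/

set_option autoImplicit false
set_option linter.unusedVariables false
set_option linter.unusedSectionVars false

namespace H57.LD40

open Cfsg Matrix H20.LD
open scoped MatrixGroups

universe u

variable {F : Type u} [Field F] {G : Subgroup (G4 F)} {u w φ ψ : V4 F} {T : V4 F → V4 F → Prop}

theorem eq_of_pair {M : Type*} [AddCommGroup M] [Module F M] {f g : V4 F →ₗ[F] M}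
    (h1 : φ ⬝ᵥ u = 0) (h1' : ψ ⬝ᵥ w = 0) (a1 : φ ⬝ᵥ w ≠ 0) (a2 : ψ ⬝ᵥ u ≠ 0) (e1 : f u = g u)
    (e2 : f w = g w) (e3 : ∀ z, φ ⬝ᵥ z = 0 → ψ ⬝ᵥ z = 0 → f z = g z) : f = g := by
  refine LinearMap.ext fun v => ?_
  have := e3 (v - (ψ ⬝ᵥ v / ψ ⬝ᵥ u) • u - (φ ⬝ᵥ v / φ ⬝ᵥ w) • w) (by simp [h1, a1])
    (by simp [h1', a2])
  simpa [e1, e2] using this

theorem mat_eq {A B : M4 F} (h1 : φ ⬝ᵥ u = 0) (h1' : ψ ⬝ᵥ w = 0) (a1 : φ ⬝ᵥ w ≠ 0)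
    (a2 : ψ ⬝ᵥ u ≠ 0) (e1 : A *ᵥ u = B *ᵥ u) (e2 : A *ᵥ w = B *ᵥ w)
    (e3 : ∀ z, φ ⬝ᵥ z = 0 → ψ ⬝ᵥ z = 0 → A *ᵥ z = B *ᵥ z) : A = B :=
  ext_iff_mulVec.2 fun v => LinearMap.congr_fun
    (eq_of_pair (f := A.mulVecLin) (g := B.mulVecLin) h1 h1' a1 a2 e1 e2 e3) v

theorem fun_eq {α β : V4 F} (h1 : φ ⬝ᵥ u = 0) (h1' : ψ ⬝ᵥ w = 0) (a1 : φ ⬝ᵥ w ≠ 0)
    (a2 : ψ ⬝ᵥ u ≠ 0) (e1 : α ⬝ᵥ u = β ⬝ᵥ u) (e2 : α ⬝ᵥ w = β ⬝ᵥ w)
    (e3 : ∀ z, φ ⬝ᵥ z = 0 → ψ ⬝ᵥ z = 0 → α ⬝ᵥ z = β ⬝ᵥ z) : α = β :=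
  funext fun i => by simpa using LinearMap.congr_fun (eq_of_pair (f := dotProductBilin F F α)
    (g := dotProductBilin F F β) h1 h1' a1 a2 e1 e2 e3) (Pi.single i 1)

/-! ### odd characteristic -/

/-- the elements of `SL₂(K)` induced by `G` on the plane spanned by `b₁, b₂` -/
def planeSub (G : Subgroup (G4 F)) (K : Subfield F) (b₁ b₂ : V4 F) (Z : V4 F → Prop) :
    Subgroup SL(2, K) where
  carrier := {h | ∃ g ∈ G, g.val *ᵥ b₁ = (h 0 0 : F) • b₁ + (h 1 0 : F) • b₂ ∧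
    g.val *ᵥ b₂ = (h 0 1 : F) • b₁ + (h 1 1 : F) • b₂ ∧ ∀ z, Z z → g.val *ᵥ z = z}
  one_mem' := ⟨1, G.one_mem, by simp, by simp, by simp⟩
  mul_mem' := by
    rintro a b ⟨g, hg, a1, a2, a3⟩ ⟨k, hk, b1, b2, b3⟩
    refine ⟨g * k, G.mul_mem hg hk, ?_, ?_, fun z hz => by
      rw [Units.val_mul, ← mulVec_mulVec, b3 z hz, a3 z hz]⟩ <;>
      simp only [Units.val_mul, ← mulVec_mulVec, b1, b2, mulVec_add, mulVec_smul, a1, a2,
        Matrix.SpecialLinearGroup.coe_mul, Matrix.mul_apply, Fin.sum_univ_two, Subfield.coe_add,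
        Subfield.coe_mul] <;> module
  inv_mem' := by
    rintro a ⟨g, hg, a1, a2, a3⟩
    have hd : (a 0 0 : F) * a 1 1 - a 0 1 * a 1 0 = 1 := by
      have := a.det_coe
      rw [det_fin_two] at this
      exact congrArg Subtype.val this
    have e : ∀ v w, g.val *ᵥ v = w → (g⁻¹).val *ᵥ w = v := fun v w h => by simp [← h]
    refine ⟨g⁻¹, G.inv_mem hg, e _ _ ?_, e _ _ ?_, fun z hz => e _ _ (a3 z hz)⟩ <;>
      simp [SpecialLinearGroup.SL2_inv_expl, mulVec_add, mulVec_smul, mulVec_neg, a1, a2] <;>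
      match_scalars <;> first | linear_combination hd | ring

theorem dickson (h2 : (2 : F) ≠ 0) (h1 : TV G u φ) (h1' : TV G w ψ)
    (a1 : φ ⬝ᵥ w ≠ 0) (a2 : ψ ⬝ᵥ u ≠ 0) [Finite (Subfield.closure {φ ⬝ᵥ w * ψ ⬝ᵥ u})] :
    (∀ x ∈ Subfield.closure {φ ⬝ᵥ w * ψ ⬝ᵥ u}, TV G (x • u) φ ∧ TV G (x • w) ψ) ∨
      ((3 : F) = 0 ∧ (φ ⬝ᵥ w * ψ ⬝ᵥ u) ^ 2 = -1) := by
  set l := φ ⬝ᵥ w * ψ ⬝ᵥ u with hl
  let K := Subfield.closure {l}
  have hlK : l ∈ K := Subfield.subset_closure rfl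
  have hl0 : l ≠ 0 := mul_ne_zero a1 a2
  have h2' : (2 : K) ≠ 0 := fun h => h2 (congrArg Subtype.val h)
  rcases H61.dickson_gen_psl (F := K) h2' (lam := ⟨l, hlK⟩) (fun h => hl0 (congrArg Subtype.val h))
    (by
      refine eq_top_iff.2 fun y _ => ?_
      obtain ⟨z, hz, h⟩ : y.1 ∈ (Subfield.closure {(⟨l, hlK⟩ : K)}).map K.subtype := by
        rw [RingHom.map_field_closure, Set.image_singleton]; exact y.2
      exact (Subtype.ext h : z = y) ▸ hz) with h | ⟨h, h', -⟩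
  swap
  · refine Or.inr ⟨?_, by simpa using congrArg Subtype.val h'⟩
    have := Fintype.ofFinite K
    have h3 := congrArg K.subtype (FiniteField.cast_card_eq_zero K)
    rw [← Nat.card_eq_fintype_card, h, map_natCast, map_zero] at h3
    exact pow_eq_zero_iff (two_ne_zero) |>.1 (by rw [← h3]; norm_num)
  let H := planeSub G K ((ψ ⬝ᵥ u)⁻¹ • u) w fun z => φ ⬝ᵥ z = 0 ∧ ψ ⬝ᵥ z = 0
  have hd : ∀ {A B : M4 F}, A *ᵥ ((ψ ⬝ᵥ u)⁻¹ • u) = B *ᵥ ((ψ ⬝ᵥ u)⁻¹ • u) → A *ᵥ w = B *ᵥ w →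
      (∀ z, φ ⬝ᵥ z = 0 → ψ ⬝ᵥ z = 0 → A *ᵥ z = B *ᵥ z) → A = B :=
    mat_eq (by simp [h1.1]) h1'.1 a1 (by simp [a2])
  obtain ⟨p, hp⟩ := CharP.exists K
  have hpp := CharP.char_is_prime K p
  have hH : ∀ y : SL(2, K), y ^ p = 1 → y ∈ H := fun y hy => by
    have : H61.proj K y ∈ H.map (H61.proj K) := by
      refine (Subgroup.closure_le _).2 ?_ (h ▸ Subgroup.mem_top _)
      rintro _ (rfl | rfl)
      · exact ⟨_, ⟨_, h1'.mem, by simp [tv, tv_mulVec, H61.lower, a2],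
          by simp [tv, tv_mulVec, H61.lower, h1'.1], fun z hz => by simp [tv, tv_mulVec, hz.2]⟩, rfl⟩
      · exact ⟨_, ⟨_, h1.mem, by simp [tv, tv_mulVec, H61.upper, h1.1],
          by simp [tv, tv_mulVec, H61.upper, hl, smul_smul, a2, add_comm w],
          fun z hz => by simp [tv, tv_mulVec, hz.1]⟩, rfl⟩
    obtain ⟨k, hk, h3⟩ := this
    have h4 := H.pow_mem hk (p + 1)
    rcases H61.proj_eq_iff.1 h3 with rfl | rfl
    · exact hk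
    · rwa [Even.neg_pow, pow_succ, hy, one_mul] at h4
      refine (hpp.odd_of_ne_two ?_).add_one
      rintro rfl
      exact h2' (CharP.cast_eq_zero K 2)
  refine Or.inl fun x hx => ⟨⟨by simp [h1.1], ?_⟩, ⟨by simp [h1'.1], ?_⟩⟩
  · obtain ⟨g, hg, b1, b2, b3⟩ := hH (H61.upper ⟨x * l, K.mul_mem hx hlK⟩) (H61.upper_pow_char p _)
    refine ⟨g, hg, hd ?_ ?_ fun z z1 z2 => ?_⟩ <;> rw [tv_mulVec]
    · simp [b1, H61.upper, h1.1]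
    · rw [b2]; simp [H61.upper, hl, smul_smul, a2, add_comm, mul_assoc, mul_comm _ x]
    · simp [b3 z ⟨z1, z2⟩, z1]
  · obtain ⟨g, hg, b1, b2, b3⟩ := hH (H61.lower ⟨x, hx⟩) (H61.lower_pow_char p _)
    refine ⟨g, hg, hd ?_ ?_ fun z z1 z2 => ?_⟩ <;> rw [tv_mulVec]
    · rw [b1]; simp [H61.lower, a2]
    · simp [b2, H61.lower, h1'.1]
    · simp [b3 z ⟨z1, z2⟩, z2]

theorem finite_closure {p n : ℕ} [Fact p.Prime] [CharP F p] (hn : 0 < n) {l : F}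
    (h : l ^ p ^ n = l) : Finite (Subfield.closure {l}) := by
  classical
  have h1 : 1 < p ^ n := Nat.one_lt_pow hn.ne' (Fact.out : p.Prime).one_lt
  have h2 : Subfield.closure {l} ≤ RingHom.eqLocusField (iterateFrobenius F p n) (RingHom.id F) :=
    (Subfield.closure_le).2 (by rintro _ rfl; exact h)
  refine Set.Finite.subset ((Polynomial.X ^ p ^ n - Polynomial.X : Polynomial F).roots.toFinset
    ).finite_toSet fun x hx => ?_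
  have : x ^ p ^ n = x := h2 hx
  simp [FiniteField.X_pow_card_sub_X_ne_zero F h1, this]

theorem finite_lam [Finite G] {p : ℕ} [Fact p.Prime] [CharP F p] (h1 : TV G u φ) (h1' : TV G w ψ) :
    Finite (Subfield.closure {φ ⬝ᵥ w * ψ ⬝ᵥ u}) := by
  let g : G := ⟨_, G.mul_mem h1.mem h1'.mem⟩
  have ht : g.1.val.trace = 4 + φ ⬝ᵥ w * ψ ⬝ᵥ u := by
    simp only [g, Units.val_mul, tv_val, mul_add, add_mul, one_mul, mul_one, trace_add, trace_one,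
      vecMulVec_mul_vecMulVec, trace_vecMulVec, Fintype.card_fin, dotProduct_smul,
      dotProduct_comm u, dotProduct_comm w, h1.1, h1'.1, smul_eq_mul, Nat.cast_ofNat,
      smul_dotProduct, add_zero, zero_add]
  have key : ∀ a b : ℕ, a < b → g ^ p ^ a = g ^ p ^ b →
      Finite (Subfield.closure {φ ⬝ᵥ w * ψ ⬝ᵥ u}) := fun a b hab e => by
    have e1 := congrArg (fun x : G => x.1.val.trace) e
    simp only [Subgroup.coe_pow, Units.val_pow_eq_pow_val, H19.trace_pow_char_pow] at e1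
    obtain ⟨n, rfl⟩ := Nat.exists_eq_add_of_lt hab
    rw [add_assoc, add_comm a, pow_add, pow_mul] at e1
    have e2 : g.1.val.trace = g.1.val.trace ^ p ^ (n + 1) := (iterateFrobenius F p a).injective e1
    rw [ht, add_pow_char_pow, show (4 : F) ^ p ^ (n + 1) = 4 from
      map_ofNat (iterateFrobenius F p (n + 1)) 4, add_right_inj] at e2
    exact finite_closure (Nat.succ_pos n) e2.symm
  obtain ⟨a, b, hab, e⟩ := Finite.exists_ne_map_eq_of_infinite fun n : ℕ => g ^ p ^ n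
  rcases lt_or_gt_of_ne hab with h | h
  exacts [key a b h e, key b a h e.symm]

/-- the scalars of a flag -/
def scal (h : TB T) (u φ : V4 F) (h0 : T 0 φ) : AddSubgroup F where
  carrier := {x | T (x • u) φ}
  zero_mem' := by simpa using h0
  add_mem' ha hb := by simpa [add_smul] using h.addL ha hb
  neg_mem' ha := by simpa using h.neg ha

theorem pair_odd [Finite G] {p : ℕ} [Fact p.Prime] [CharP F p] (h2 : (2 : F) ≠ 0) (h1 : TV G u φ)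
    (h1' : TV G w ψ) (a1 : φ ⬝ᵥ w ≠ 0) (a2 : ψ ⬝ᵥ u ≠ 0) :
    ∃ K : Subfield F, (∀ x, x ∈ K ↔ TV G (x • u) φ) ∧ (∀ x, x ∈ K ↔ TV G (x • w) ψ) ∧
      (φ ⬝ᵥ w * ψ ⬝ᵥ u ∈ K ∨ Exc K (φ ⬝ᵥ w * ψ ⬝ᵥ u)) := by
  refine H25.Tv3.field_of_pair (A := scal (tb G) u φ ((tb G).zeroL h1))
    (B := scal (tb G) w ψ ((tb G).zeroL h1')) (mul_ne_zero a1 a2) h2
    (by simpa [scal] using h1) (by simpa [scal] using h1') fun a ha b hb a0 b0 => ?_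
  have := finite_lam (p := p) ha hb
  have := dickson h2 ha hb (by simp [a1, b0]) (by simp [a2, a0])
  simp only [dotProduct_smul, smul_eq_mul, smul_smul] at this
  rwa [show b * φ ⬝ᵥ w * (a * ψ ⬝ᵥ u) = a * b * (φ ⬝ᵥ w * ψ ⬝ᵥ u) by ring] at this

/-! ### characteristic two -/

theorem tv_mul_self (h2 : (2 : F) = 0) (h : φ ⬝ᵥ u = 0) : tv u φ h * tv u φ h = 1 := by
  refine Units.ext ?_
  simp [tv, mul_add, add_mul, vecMulVec_mul_vecMulVec, h, add_assoc, ← two_smul F, h2]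

theorem fix_of_comm (h2 : (2 : F) = 0) {z : G4 F} (hz : z * z = 1) {h : φ ⬝ᵥ u = 0}
    (hc : z * tv u φ h = tv u φ h * z) (a1 : φ ⬝ᵥ w ≠ 0) (hu : u ≠ 0) : z.val *ᵥ u = u := by
  have h1 := congrArg (fun g : G4 F => g.val *ᵥ w) hc
  simp only [Units.val_mul, ← mulVec_mulVec, tv, tv_mulVec, mulVec_add, mulVec_smul,
    add_right_inj] at h1
  have h3 : z.val *ᵥ u = ((φ ⬝ᵥ w)⁻¹ * φ ⬝ᵥ z.val *ᵥ w) • u := by
    rw [mul_smul, ← h1, inv_smul_smul₀ a1]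
  generalize (φ ⬝ᵥ w)⁻¹ * φ ⬝ᵥ z.val *ᵥ w = c at h3
  have h4 := congrArg (z.val *ᵥ ·) h3
  simp only [mulVec_mulVec, ← Units.val_mul, hz, Units.val_one, one_mulVec, mulVec_smul] at h4
  rw [h3, smul_smul] at h4
  have h5 : 1 = c * c := smul_left_injective F hu (by simpa using h4)
  have h6 : c = 1 := sub_eq_zero.1 (mul_self_eq_zero.1 (by linear_combination -h5 + (1 - c) * h2))
  rw [h3, h6, one_smul]

theorem pow_fix {g : G4 F} {z : V4 F} (h : g.val *ᵥ z = z) (n : ℕ) : (g ^ n).val *ᵥ z = z := by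
  induction n with
  | zero => simp
  | succ n ih => rw [pow_succ, Units.val_mul, ← mulVec_mulVec, h, ih]

theorem odd_orderOf_tv [Finite G] (h2 : (2 : F) = 0) (h1 : TV G u φ) (h1' : TV G w ψ)
    (a1 : φ ⬝ᵥ w ≠ 0) (a2 : ψ ⬝ᵥ u ≠ 0) : Odd (orderOf (tv u φ h1.1 * tv w ψ h1'.1)) := by
  have hpos : 0 < orderOf (tv u φ h1.1 * tv w ψ h1'.1) := by
    have := orderOf_pos (⟨_, G.mul_mem h1.mem h1'.mem⟩ : G)
    rwa [← Subgroup.orderOf_coe] at this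
  set t := tv u φ h1.1
  set s := tv w ψ h1'.1
  have ht : t * t = 1 := tv_mul_self h2 h1.1
  have hs : s * s = 1 := tv_mul_self h2 h1'.1
  by_contra ho
  obtain ⟨k, hk⟩ := Nat.not_odd_iff_even.1 ho
  have hz : (t * s) ^ k * (t * s) ^ k = 1 := by rw [← pow_add, ← hk, pow_orderOf_eq_one]
  have h3 : (t * s) ^ k * t = t * (t * s) ^ k := by
    have : t * (t * s) * t⁻¹ = (t * s)⁻¹ := by
      rw [← mul_assoc, ht, one_mul, _root_.mul_inv_rev, inv_eq_of_mul_eq_one_right hs]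
    rw [← mul_inv_eq_iff_eq_mul.1 (show t * (t * s) ^ k * t⁻¹ = (t * s) ^ k by
      rw [← conj_pow, this, inv_pow, inv_eq_of_mul_eq_one_right hz])]
  have h4 : (t * s) ^ k * s = s * (t * s) ^ k := by
    have := ((show Commute _ _ from h3).mul_right ((Commute.refl (t * s)).pow_left k)).eq
    rwa [← mul_assoc t t, ht, one_mul] at this
  refine pow_ne_one_of_lt_orderOf (x := t * s) (n := k) (by omega) (by omega) (Units.ext (mat_eq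
    h1.1 h1'.1 a1 a2 ?_ ?_ fun z z1 z2 => ?_)) <;> rw [Units.val_one, one_mulVec]
  · exact fix_of_comm h2 hz h3 a1 (right_ne_of_dot a2)
  · exact fix_of_comm h2 hz h4 a2 (right_ne_of_dot a1)
  · exact pow_fix (by simp [t, s, tv, ← mulVec_mulVec, tv_mulVec, z1, z2]) k

theorem sw (h2 : (2 : F) = 0) (G : Subgroup (G4 F)) [Finite G] : Sw (TV G) := by
  intro u φ w ψ h1 h1' a1 a2
  obtain ⟨m, hm⟩ := odd_orderOf_tv h2 h1 h1' a1 a2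
  set t := tv u φ h1.1 with ht'
  set s := tv w ψ h1'.1 with hs'
  have ht : t * t = 1 := tv_mul_self h2 _
  have hs : s * s = 1 := tv_mul_self h2 _
  have h3 : t * (t * s) ^ m = ((t * s) ^ m)⁻¹ * t := by
    rw [← mul_inv_eq_iff_eq_mul, ← conj_pow, ← mul_assoc, ht, one_mul, ← inv_pow, _root_.mul_inv_rev,
      inv_eq_of_mul_eq_one_right hs]
  have h4 : (t * s) ^ m * (t * s) ^ m * (t * s) = 1 := by
    rw [← pow_add, ← pow_succ, ← two_mul, ← hm, pow_orderOf_eq_one]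
  have hr : (t * s) ^ m * t * ((t * s) ^ m * t) = 1 := by
    rw [mul_assoc, ← mul_assoc t, h3]; simp [mul_assoc, ht]
  have hrt : (t * s) ^ m * t * t * ((t * s) ^ m * t)⁻¹ = s := by
    rw [inv_eq_of_mul_eq_one_right hr, mul_assoc _ t t, ht, mul_one, ← mul_assoc,
      eq_inv_of_mul_eq_one_left h4, _root_.mul_inv_rev, inv_eq_of_mul_eq_one_right hs]
    simp
  have hz : ∀ z, φ ⬝ᵥ z = 0 → ψ ⬝ᵥ z = 0 → ((t * s) ^ m * t).val *ᵥ z = z := fun z z1 z2 => by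
    rw [Units.val_mul, ← mulVec_mulVec, show t.val *ᵥ z = z by simp [t, tv, tv_mulVec, z1]]
    exact pow_fix (by simp [t, s, tv, ← mulVec_mulVec, tv_mulVec, z1, z2]) m
  have hG : (t * s) ^ m * t ∈ G := G.mul_mem (G.pow_mem (G.mul_mem h1.mem h1'.mem) m) h1.mem
  generalize (t * s) ^ m * t = r at hr hrt hz hG
  have h5 := congrArg (fun g : G4 F => g.val *ᵥ u) hrt
  simp only [ht', conj_tv_val, hs'] at h5
  simp only [tv, tv_mulVec, add_right_inj, ← dotProduct_mulVec,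
    inv_eq_of_mul_eq_one_right hr] at h5
  have h6 : φ ⬝ᵥ r.val *ᵥ u ≠ 0 := fun h => by
    rw [h, zero_smul, eq_comm, smul_eq_zero] at h5
    exact h5.elim a2 (right_ne_of_dot a1)
  obtain ⟨c, hc⟩ : ∃ c : F, r.val *ᵥ u = c • w :=
    ⟨_, by rw [← inv_smul_smul₀ h6 (r.val *ᵥ u), h5, smul_smul]⟩
  rw [hc, dotProduct_smul, smul_smul] at h5
  have h7 : c ^ 2 * φ ⬝ᵥ w = ψ ⬝ᵥ u := by
    rw [← smul_left_injective F (right_ne_of_dot a1) h5, smul_eq_mul]; ring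
  have hc0 : c ≠ 0 := by rintro rfl; exact a2 (by simpa using h7.symm)
  have h8 : r.val *ᵥ w = c⁻¹ • u := by
    have := congrArg (r.val *ᵥ ·) hc
    simp only [mulVec_mulVec, ← Units.val_mul, hr, Units.val_one, one_mulVec, mulVec_smul] at this
    rw [this, inv_smul_smul₀ hc0]
  refine ⟨c, h7, ?_, r, hG, mat_eq h1.1 h1'.1 a1 a2 ?_ ?_ fun z z1 z2 => ?_⟩
  · simp [h1.1, h1'.1, a2]; field_simp; linear_combination h2
  · rw [tv_mulVec, hc]; simp [h1.1, a2, ← add_assoc, ← two_smul F, h2]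
  · rw [tv_mulVec, h8]
    simp only [add_dotProduct, smul_dotProduct, h1'.1, smul_eq_mul]
    match_scalars <;> field_simp
    · ring
    · linear_combination -(ψ ⬝ᵥ u) * h2
  · rw [tv_mulVec, hz z z1 z2]; simp [z1, z2]

theorem flip (h : TB T) (hs : Sw T) (h2 : (2 : F) = 0) (h1 : T u φ) (h1' : T w ψ)
    (a1 : φ ⬝ᵥ w ≠ 0) (a2 : ψ ⬝ᵥ u ≠ 0) {φ' : V4 F} (h3 : T u φ') :
    ∃ ψ', T w ψ' ∧ ψ' ⬝ᵥ u = ψ ⬝ᵥ u * φ' ⬝ᵥ w / φ ⬝ᵥ w := by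
  obtain ⟨c, b1, b2⟩ := hs u φ w ψ h1 h1' a1 a2
  have := h.conj b2 h3
  simp only [add_dotProduct, smul_dotProduct, h.orth h1, smul_eq_mul, inv_mul_cancel₀ a2, mul_zero,
    add_zero, one_smul, ← add_assoc, ← two_smul F, h2, zero_smul, zero_add, h.smul_iff] at this
  refine ⟨_, this, ?_⟩
  simp [h.orth h1, h.orth h3, a2]
  rw [← b1]; field_simp; linear_combination -c ^ 2 * (φ' ⬝ᵥ w) * h2

theorem pair_aux (h : TB T) (hs : Sw T) (h2 : (2 : F) = 0) (h1 : T u φ) (h1' : T w ψ)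
    (a1 : φ ⬝ᵥ w ≠ 0) (a2 : ψ ⬝ᵥ u ≠ 0) :
    ∃ K : Subfield F, (∀ x, x ∈ K ↔ ∃ φ', T u φ' ∧ φ' ⬝ᵥ w = x * φ ⬝ᵥ w) ∧
      ∀ x, x ∈ K ↔ ∃ ψ', T w ψ' ∧ ψ' ⬝ᵥ u = x * ψ ⬝ᵥ u := by
  have h0 : T u 0 := h.zeroR h1
  refine ⟨{ carrier := {x | ∃ φ', T u φ' ∧ φ' ⬝ᵥ w = x * φ ⬝ᵥ w}
            one_mem' := ⟨φ, h1, by simp⟩
            zero_mem' := ⟨0, h0, by simp⟩
            add_mem' := ?_
            neg_mem' := ?_
            mul_mem' := ?_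
            inv_mem' := ?_ }, fun _ => Iff.rfl, fun x => ⟨?_, ?_⟩⟩
  · rintro x y ⟨φ₁, b1, b2⟩ ⟨φ₂, c1, c2⟩
    by_cases hy : y = 0
    · exact ⟨0, h0, by simp [hy]⟩
    obtain ⟨ψ₁, d1, d2⟩ := flip h hs h2 h1 h1' a1 a2 b1
    obtain ⟨φ₃, e1, e2⟩ := flip h hs h2 h1' c1 a2 (by simp [c2, hy, a1]) d1
    exact ⟨φ₃, e1, by rw [e2, d2, b2, c2]; field_simp⟩
  · rintro x y ⟨φ₁, b1, b2⟩ ⟨φ₂, c1, c2⟩
    exact ⟨_, h.addR b1 c1, by rw [add_dotProduct, b2, c2, add_mul]⟩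
  · rintro x ⟨φ₁, b1, b2⟩
    exact ⟨_, h.negR b1, by rw [neg_dotProduct, b2, neg_mul]⟩
  · rintro x ⟨φ₁, b1, b2⟩
    by_cases hx : x = 0
    · exact ⟨0, h0, by simp [hx]⟩
    obtain ⟨ψ₁, d1, d2⟩ := flip h hs h2 b1 h1' (by simp [b2, hx, a1]) a2 h1
    obtain ⟨φ₃, e1, e2⟩ := flip h hs h2 h1' h1 a2 a1 d1
    exact ⟨φ₃, e1, by rw [e2, d2, b2]; field_simp⟩
  · rintro ⟨φ₁, b1, b2⟩
    obtain ⟨ψ₁, d1, d2⟩ := flip h hs h2 h1 h1' a1 a2 b1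
    exact ⟨ψ₁, d1, by rw [d2, b2]; field_simp⟩
  · rintro ⟨ψ₁, b1, b2⟩
    obtain ⟨φ₁, d1, d2⟩ := flip h hs h2 h1' h1 a2 a1 b1
    exact ⟨φ₁, d1, by rw [d2, b2]; field_simp⟩

theorem pair_two (h : TB T) (hs : Sw T) (h2 : (2 : F) = 0) (h1 : T u φ) (h1' : T w ψ)
    (a1 : φ ⬝ᵥ w ≠ 0) (a2 : ψ ⬝ᵥ u ≠ 0) :
    ∃ K : Subfield F, (∀ x, x ∈ K ↔ ∃ φ', T u φ' ∧ φ' ⬝ᵥ w = x * φ ⬝ᵥ w) ∧
      (∀ x, x ∈ K ↔ ∃ ψ', T w ψ' ∧ ψ' ⬝ᵥ u = x * ψ ⬝ᵥ u) ∧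
      (φ ⬝ᵥ w * ψ ⬝ᵥ u ∈ K ∨ ∀ x ∈ K, x = 0 ∨ x = 1) := by
  obtain ⟨K, k1, k2⟩ := pair_aux h hs h2 h1 h1' a1 a2
  refine ⟨K, k1, k2, or_iff_not_imp_right.2 fun hc => ?_⟩
  push Not at hc
  obtain ⟨d, hd, d0, d1⟩ := hc
  have d2 : 1 + d ≠ 0 := fun h => d1 (by linear_combination h - h2)
  obtain ⟨c, b1, b2⟩ := hs u φ w ψ h1 h1' a1 a2
  have hc0 : c ≠ 0 := by rintro rfl; exact a2 (by simpa using b1.symm)
  obtain ⟨ψ', c1, c2⟩ := (k2 _).1 (pow_mem hd 2)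
  obtain ⟨c', e1, e2⟩ := hs u φ w ψ' h1 c1 a1 (by simp [c2, d0, a2])
  obtain rfl : c' = c * d := sub_eq_zero.1 (mul_self_eq_zero.1 (mul_right_cancel₀ a1 (by
    linear_combination e1 + c2 - d ^ 2 * b1 + (c ^ 2 * d ^ 2 - c * c' * d) * (φ ⬝ᵥ w) * h2)))
  obtain ⟨K', l1, l2⟩ := pair_aux h hs h2 b2 h1 (by simp [h.orth h1, a2])
    (by simp [h.orth h1, a1, hc0])
  obtain ⟨φ', f1, f2⟩ := (k1 _).1 (div_mem hd (add_mem (one_mem K) hd))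
  obtain ⟨χ, g1, g2⟩ := (l1 _).1 ((l2 (d / (1 + d))).2 ⟨φ', f1, by
    simp [h.orth h1, h.orth f1, f2]; ring⟩)
  simp only [add_dotProduct, smul_dotProduct, h.orth h1, smul_eq_mul, inv_mul_cancel₀ a2, mul_zero,
    add_zero, mul_one] at g2
  have g3 : χ ⬝ᵥ w = -(d / (1 + d)) / c := by
    have := h.orth g1
    rw [dotProduct_add, dotProduct_smul, g2, smul_eq_mul] at this
    field_simp at this ⊢
    linear_combination this
  have g4 := h.conj g1 e2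
  rw [show u + (c * d) • w + (χ ⬝ᵥ (u + (c * d) • w)) • (u + c • w) = (1 + d) • u by
    rw [show χ ⬝ᵥ (u + (c * d) • w) = d by
      rw [dotProduct_add, dotProduct_smul, g2, g3, smul_eq_mul]
      field_simp
      linear_combination -d * h2]
    match_scalars
    · ring
    · linear_combination c * d * h2, h.smul_iff] at g4
  have g5 := (k1 ((1 + d) ^ 2 / (d * (c * φ ⬝ᵥ w)))).2 ⟨_, g4, by
    simp [h.orth h1, h.orth c1, c2, g3]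
    field_simp
    linear_combination (0 : F) * h2⟩
  have g6 := div_mem (div_mem (pow_mem (add_mem (one_mem K) hd) 2) g5) hd
  convert pow_mem g6 2 using 1
  rw [← b1]; field_simp

theorem pair [Finite G] {p : ℕ} [Fact p.Prime] [CharP F p] (h1 : TV G u φ) (h1' : TV G w ψ)
    (a1 : φ ⬝ᵥ w ≠ 0) (a2 : ψ ⬝ᵥ u ≠ 0) :
    ∃ K : Subfield F, (∀ x, x ∈ K ↔ TV G (x • u) φ) ∧ (∀ x, x ∈ K ↔ TV G (x • w) ψ) ∧
      (φ ⬝ᵥ w * ψ ⬝ᵥ u ∈ K ∨ Exc K (φ ⬝ᵥ w * ψ ⬝ᵥ u) ∨ ((2 : F) = 0 ∧ Two K)) := by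
  by_cases h2 : (2 : F) = 0
  swap
  · obtain ⟨K, k1, k2, k3⟩ := pair_odd (p := p) h2 h1 h1' a1 a2
    exact ⟨K, k1, k2, k3.imp_right Or.inl⟩
  let G' : Subgroup (G4 F) :=
    { carrier := {g | g ∈ G ∧ ∀ z, φ ⬝ᵥ z = 0 → ψ ⬝ᵥ z = 0 → g.val *ᵥ z = z}
      one_mem' := ⟨G.one_mem, by simp⟩
      mul_mem' := fun a b => ⟨G.mul_mem a.1 b.1, fun z z1 z2 => by
        rw [Units.val_mul, ← mulVec_mulVec, b.2 z z1 z2, a.2 z z1 z2]⟩
      inv_mem' := fun {g} a => ⟨G.inv_mem a.1, fun z z1 z2 => by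
        conv_lhs => rw [← a.2 z z1 z2]
        simp⟩ }
  have : Finite G' := Finite.Set.subset (G : Set (G4 F)) fun g hg => hg.1
  have e : ∀ u' φ', TV G' u' φ' ↔
      TV G u' φ' ∧ ∀ z, φ ⬝ᵥ z = 0 → ψ ⬝ᵥ z = 0 → (φ' ⬝ᵥ z) • u' = 0 := fun u' φ' =>
    ⟨fun h => ⟨.of_mem h.mem.1, fun z z1 z2 => by simpa [tv, tv_mulVec] using h.mem.2 z z1 z2⟩,
      fun h => .of_mem (h := h.1.1) ⟨h.1.mem, fun z z1 z2 => by
        simpa [tv, tv_mulVec] using h.2 z z1 z2⟩⟩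
  obtain ⟨K, k1, k2, k3⟩ := pair_two (tb G') (sw h2 G') h2
    ((e u φ).2 ⟨h1, fun z z1 z2 => by simp [z1]⟩) ((e w ψ).2 ⟨h1', fun z z1 z2 => by simp [z2]⟩) a1 a2
  refine ⟨K, fun x => (k1 x).trans ⟨?_, fun h => ?_⟩, fun x => (k2 x).trans ⟨?_, fun h => ?_⟩,
    k3.imp_right fun h => Or.inr ⟨h2, h⟩⟩
  · rintro ⟨φ', b1, b2⟩
    rw [e] at b1
    rw [(tb G).smul_iff, ← fun_eq (α := φ') (β := x • φ) h1.1 h1'.1 a1 a2 (by simp [b1.1.1, h1.1])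
      (by simp [b2]) fun z z1 z2 => by simpa [z1, right_ne_of_dot a2] using b1.2 z z1 z2]
    exact b1.1
  · exact ⟨x • φ, (e _ _).2 ⟨((tb G).smul_iff x).1 h, fun z z1 z2 => by simp [z1]⟩, by simp⟩
  · rintro ⟨ψ', b1, b2⟩
    rw [e] at b1
    rw [(tb G).smul_iff, ← fun_eq (α := ψ') (β := x • ψ) h1.1 h1'.1 a1 a2 (by simp [b2])
      (by simp [b1.1.1, h1'.1]) fun z z1 z2 => by simpa [z2, right_ne_of_dot a1] using b1.2 z z1 z2]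
    exact b1.1
  · exact ⟨x • ψ, (e _ _).2 ⟨((tb G).smul_iff x).1 h, fun z z1 z2 => by simp [z2]⟩, by simp⟩

end H57.LD40
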