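import Cfsg.Agent.H20.LD4Tv
import Cfsg.Agent.H57.SLCard

/-! LD4, slot TVL: the linear case for groups generated by transvections in dimension four. -/

set_option autoImplicit false
set_option linter.unusedVariables false

namespace H57.LD4

open Cfsg Matrix H20.LD
open scoped MatrixGroups

universe u

variable {k : Type u} [Field k] {T : V4 k → V4 k → Prop} {K : Subfield k} {G : Subgroup (G4 k)}
  {u w z φ ψ χ : V4 k}

/-- the standard basis vectors -/
abbrev e (i : Fin 4) : V4 k := Pi.single i 1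

theorem e_ne (i : Fin 4) : (e i : V4 k) ≠ 0 := by simp [e]

theorem e_mem (i j : Fin 4) : (e i : V4 k) j ∈ K := by
  rw [e, Pi.single_apply]; split_ifs <;> simp

/-- all coordinate flags are present -/
def Std4 (T : V4 k → V4 k → Prop) : Prop := ∀ i j : Fin 4, i ≠ j → T (e i) (e j)

/-- the coordinate flags of the first three coordinates are present -/
def Std3 (T : V4 k → V4 k → Prop) : Prop :=
  ∀ i j : Fin 4, i ≠ j → i ≠ 3 → j ≠ 3 → T (e i) (e j)

theorem Std4.swap (h : Std4 T) : Std4 fun φ u => T u φ := fun i j hij => h j i hij.symm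

theorem Std3.swap (h : Std3 T) : Std3 fun φ u => T u φ := fun i j hij a b => h j i hij.symm b a

theorem of_sum (h : TS K T) (hu : T u ψ) (hφ : ∀ j, φ j ∈ K) (h0 : ∀ j, φ j ≠ 0 → T u (e j)) :
    T u φ := by
  have key : ∀ s : Finset (Fin 4), T u (∑ j ∈ s, φ j • e j) := fun s => by
    induction s using Finset.induction_on with
    | empty => simpa using h.zeroR hu
    | insert j s hj ih =>
      rw [Finset.sum_insert hj]
      by_cases h1 : φ j = 0
      · simpa [h1] using ih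
      · exact h.addR (h.memR (h0 j h1) (hφ j)) ih
  convert key Finset.univ using 1
  ext j
  simp [e, Finset.sum_apply, Pi.single_apply]

theorem conj_rat (h : TS K T) {i : Fin 4} (hi : u i ≠ 0) (hu : u i ∈ K) (h0 : φ ⬝ᵥ u = 0)
    (h1 : T (u - u i • e i) (e i)) (h2 : T (e i) (φ - φ i • e i)) : T u φ := by
  convert h.conj (h.memR h1 (inv_mem hu)) (h.mem h2 hu) using 1
  · simp [e, hi]
  · simp [e, h0, smul_smul, hi]

theorem of_rat_aux (h : TS K T) (hs : Std4 T) {i : Fin 4} (hφ : ∀ i, φ i ∈ K) (h0 : φ i = 0) :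
    T (e i) φ :=
  of_sum h (hs i (i + 1) (by simp)) hφ fun j hj => hs i j (by rintro rfl; exact hj h0)

theorem sub_mem_rat (hu : ∀ i, u i ∈ K) (i j : Fin 4) : (u - u i • e i : V4 k) j ∈ K :=
  sub_mem (hu j) (mul_mem (hu i) (e_mem i j))

theorem of_rat (h : TS K T) (hs : Std4 T) (hu : ∀ i, u i ∈ K) (hφ : ∀ i, φ i ∈ K) (hu0 : u ≠ 0)
    (h0 : φ ⬝ᵥ u = 0) : T u φ := by
  obtain ⟨i, hi⟩ := Function.ne_iff.1 hu0
  exact conj_rat h hi (hu i) h0 (of_rat_aux h.swap hs.swap (sub_mem_rat hu i) (by simp [e]))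
    (of_rat_aux h hs (sub_mem_rat hφ i) (by simp [e]))

theorem of_rat_aux3 (h : TS K T) (hs : Std3 T) {i : Fin 4} (hi : i ≠ 3) (hφ : ∀ i, φ i ∈ K)
    (h0 : φ i = 0) (h3 : φ 3 = 0) : T (e i) φ := by
  obtain ⟨j, j1, j2⟩ : ∃ j : Fin 4, i ≠ j ∧ j ≠ 3 := by
    clear * - hi
    revert i; decide
  exact of_sum h (hs i j j1 hi j2) hφ fun j hj =>
    hs i j (by rintro rfl; exact hj h0) hi (by rintro rfl; exact hj h3)

theorem of_rat3 (h : TS K T) (hs : Std3 T) (hu : ∀ i, u i ∈ K) (hφ : ∀ i, φ i ∈ K) (hu0 : u ≠ 0)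
    (h0 : φ ⬝ᵥ u = 0) (u3 : u 3 = 0) (φ3 : φ 3 = 0) : T u φ := by
  obtain ⟨i, hi⟩ := Function.ne_iff.1 hu0
  have i3 : i ≠ 3 := by rintro rfl; exact hi u3
  exact conj_rat h hi (hu i) h0
    (of_rat_aux3 h.swap hs.swap i3 (sub_mem_rat hu i) (by simp [e]) (by simp [e, u3, i3.symm]))
    (of_rat_aux3 h hs i3 (sub_mem_rat hφ i) (by simp [e]) (by simp [e, φ3, i3.symm]))

/-- the fourth basis vector is a centre -/
theorem exists_last (h : TS K T) (hL : Lam K T) (hs : Std3 T) :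
    ∃ c : k, c ≠ 0 ∧ ∀ i, i ≠ 3 → T (c • e 3) (e i) := by
  obtain ⟨w, ψ, a1, a2, a3⟩ := h.exists_opp (e_ne 0) (e_ne 3)
  obtain ⟨a, ha, b, hb, c1, c2⟩ := h.exists_axis hL (hs 0 1 (by decide) (by decide) (by decide))
    (hs 0 2 (by decide) (by decide) (by decide)) a1 a3
  set η : V4 k := a • e 1 + b • e 2 with hη
  have η0 : η 0 = 0 := by simp [hη, e]
  have η1 : η 1 = a := by simp [hη, e]
  have η2 : η 2 = b := by simp [hη, e]
  have η3 : η 3 = 0 := by simp [hη, e]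
  have ηK : ∀ i, η i ∈ K := fun i => add_mem (mul_mem ha (e_mem _ _)) (mul_mem hb (e_mem _ _))
  have ηn : η ≠ 0 := fun h0 => by
    rw [h0] at η1 η2
    rcases c1 with c1 | c1
    exacts [c1 η1.symm, c1 η2.symm]
  have t0 : T (e 0) η := of_rat_aux3 h hs (by decide) ηK η0 η3
  have b1 : T ((ψ ⬝ᵥ e 0) • w) η := h.commL a1 t0 c2
  set w' : V4 k := (ψ ⬝ᵥ e 0) • w with hw'
  have w3 : w' 3 ≠ 0 := by
    rw [hw', Pi.smul_apply, smul_eq_mul]
    exact mul_ne_zero a3 (by simpa [e] using a2)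
  have key : ∀ (v : V4 k) (i : Fin 4), (∀ i, v i ∈ K) → v ≠ 0 → v 3 = 0 → i ≠ 3 → v i = 0 →
      η ⬝ᵥ v = 0 → w' i ∈ K := fun v i v1 v2 v3 i3 vi hv => by
    have := h.commL (of_rat3 h hs v1 (e_mem i) v2 (by simpa [e] using vi) v3
      (by simp [e, i3.symm])) b1 hv
    simpa [e] using h.max (of_rat3 h hs v1 ηK v2 hv v3 η3) this v2 ηn
  have k1 : w' 1 ∈ K := key (e 0) 1 (e_mem 0) (e_ne 0) (by simp [e]) (by decide) (by simp [e])
    (by simpa [e] using η0)
  have k2 : w' 2 ∈ K := key (e 0) 2 (e_mem 0) (e_ne 0) (by simp [e]) (by decide) (by simp [e])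
    (by simpa [e] using η0)
  have k0 : w' 0 ∈ K := key (b • e 1 - a • e 2) 0
    (fun i => sub_mem (mul_mem hb (e_mem _ _)) (mul_mem ha (e_mem _ _)))
    (fun h0 => by
      have e1 := congrFun h0 1
      have e2 := congrFun h0 2
      simp [e] at e1 e2
      tauto) (by simp [e]) (by decide) (by simp [e])
    (by simp [e, η1, η2, mul_comm])
  have b2 : T (w' - w' 3 • e 3) η := by
    by_cases h0 : w' - w' 3 • e 3 = 0
    · rw [h0]; exact h.zeroL t0
    refine of_rat3 h hs (fun i => ?_) ηK h0 (by simp [e, η3, h.orth b1]) (by simp [e]) η3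
    fin_cases i <;> simp [e, k0, k1, k2]
  have b3 : T (w' 3 • e 3) η := by simpa using h.subL b1 b2
  have step : ∀ (θ : V4 k) (i j : Fin 4), T (w' 3 • e 3) θ → θ j ∈ K → θ j ≠ 0 → j ≠ i → j ≠ 3 →
      i ≠ 3 → T (w' 3 • e 3) (e i) := fun θ i j t1 t2 t3 t4 t5 t6 => by
    have := h.mem (h.commL t1 (hs j i t4 t5 t6) (by simp [e, t6])) (inv_mem t2)
    simpa [e, smul_smul, t3] using this
  have f0 : T (w' 3 • e 3) (e 0) := by
    rcases c1 with c1 | c1
    · exact step η 0 1 b3 (ηK _) (by rwa [η1]) (by decide) (by decide) (by decide)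
    · exact step η 0 2 b3 (ηK _) (by rwa [η2]) (by decide) (by decide) (by decide)
  refine ⟨w' 3, w3, fun i hi => ?_⟩
  by_cases i0 : i = 0
  · rwa [i0]
  · exact step _ i 0 f0 (e_mem _ _) (by simp [e]) (Ne.symm i0) (by decide) hi

theorem exists_std4 (h : TS K T) (hL : Lam K T) (hs : Std3 T) : ∃ B : G4 k, Std4 (pb B T) := by
  obtain ⟨c, hc, c1⟩ := exists_last h hL hs
  obtain ⟨d, hd, d1⟩ := exists_last h.swap hL.swap hs.swap
  have hK : d * c ∈ K := by
    have := h.commL (d1 0 (by decide)) (c1 1 (by decide)) (by simp [e])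
    simpa [e, mul_comm] using h.max (hs 0 1 (by decide) (by decide) (by decide)) this (e_ne 0)
      (e_ne 1)
  have d2 : ∀ i, i ≠ 3 → T (e i) (c⁻¹ • e 3) := fun i hi => by
    have := h.memR (d1 i hi) (inv_mem hK)
    rwa [smul_smul, show (d * c)⁻¹ * d = c⁻¹ by field_simp] at this
  obtain ⟨B, b1, b2⟩ := exists_frame (k := k) ![e 0, e 1, e 2, c • e 3] ![e 0, e 1, e 2, c⁻¹ • e 3]
    fun i j => by fin_cases i <;> fin_cases j <;> simp [e, hc]
  refine ⟨B, fun i j hij => ?_⟩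
  rw [pb, b1, b2]
  fin_cases i <;> fin_cases j <;> first
    | exact absurd rfl hij
    | exact hs _ _ (by decide) (by decide) (by decide)
    | exact c1 _ (by decide)
    | exact d2 _ (by decide)

/-- an asymmetric system has a coordinate triangle -/
theorem exists_std3 (h : TS K T) (hL : Lam K T) (hS : ¬ H20.LD.Sym T) : ∃ B : G4 k, Std3 (pb B T) := by
  simp only [H20.LD.Sym, not_forall] at hS
  obtain ⟨u, φ, w, ψ, h1, h2, h3, h4, h5, h6⟩ := hS
  obtain ⟨z, χ, a1, a2, a3⟩ := h.exists_opp h4 h3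
  have hn : ND T w ψ u φ z χ := ⟨h2, h1, a1, by simp [cyc, h5, h6, a2, a3]⟩
  obtain ⟨B, t, b0, b1, b2, -, c1, -⟩ := h.res hn
  have f1 : res (pb B T) (Pi.single 1 1) ![φ ⬝ᵥ w, 0, φ ⬝ᵥ z] := by
    rw [res, pb, b1, c1]; exact h1
  have f2 : res (pb B T) ((ψ ⬝ᵥ u) • Pi.single 0 1) ![φ ⬝ᵥ w, 0, φ ⬝ᵥ z] := by
    rw [res, pb, ex_smul, mulVec_smul, b0, c1]; exact h.commL h2 h1 h5
  obtain ⟨C, hC⟩ := t.exists_std (hL.pb B).res f1 f2 (fun h0 => by
      simpa [cross_apply, h6] using congrFun h0 2) (fun h0 => a2 (by simpa using congrFun h0 2))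
  obtain ⟨D, d1, d2⟩ := exists_frame (k := k)
    ![ex (C.val *ᵥ Pi.single 0 1), ex (C.val *ᵥ Pi.single 1 1), ex (C.val *ᵥ Pi.single 2 1), e 3]
    ![ex (Pi.single 0 1 ᵥ* (C⁻¹).val), ex (Pi.single 1 1 ᵥ* (C⁻¹).val),
      ex (Pi.single 2 1 ᵥ* (C⁻¹).val), e 3] fun i j => by
      have x1 : ∀ a : Fin 3 → k, ex a ⬝ᵥ e 3 = 0 := fun a => by simp [e, ex]
      have x2 : ∀ a : Fin 3 → k, e 3 ⬝ᵥ ex a = 0 := fun a => by simp [e, ex]
      have x3 : ∀ i j : Fin 3, ex (Pi.single i 1 ᵥ* (C⁻¹).val) ⬝ᵥ ex (C.val *ᵥ Pi.single j 1) =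
          if i = j then 1 else 0 := fun i j => by
        rw [ex_dot, H25.Tv3.vecMul_inv_dot, single_dotProduct, one_mul, Pi.single_apply]
      fin_cases i <;> fin_cases j <;> first
        | exact x3 _ _
        | exact x1 _
        | exact x2 _
        | simp [e]
  refine ⟨B * D, fun i j hij i3 j3 => ?_⟩
  rw [← pb_pb, pb, d1, d2]
  fin_cases i <;> fin_cases j <;> first
    | exact absurd rfl hij
    | exact absurd rfl i3
    | exact absurd rfl j3
    | exact hC _ _ (by decide)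

/-! ### rationality -/

theorem rat_left (h : TS K T) (hL : Lam K T) (hs : Std4 T) (h1 : T u φ) (hu : u ≠ 0)
    (hφ : φ ≠ 0) : ∃ c : k, ∃ v : V4 k, (∀ i, v i ∈ K) ∧ u = c • v := by
  obtain ⟨m, hm⟩ := Function.ne_iff.1 hu
  have hm' : u m ≠ 0 := hm
  have key : ∀ w ψ : V4 k, (∀ i, w i ∈ K) → (∀ i, ψ i ∈ K) → φ ⬝ᵥ w ≠ 0 → w m = 0 → ψ ⬝ᵥ w = 0 →
      ψ ⬝ᵥ u / u m ∈ K := fun w ψ w1 ψ1 a1 a2 a3 => by
    have w0 := right_ne_of_dot a1
    obtain ⟨a, ha, b, hb, c1, c2⟩ := h.exists_axis hL (of_rat h hs w1 ψ1 w0 a3)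
      (of_rat h hs w1 (e_mem m) w0 (by simpa [e] using a2)) h1 a1
    simp only [add_dotProduct, smul_dotProduct, e, single_dotProduct, one_mul, smul_eq_mul] at c2
    have a0 : a ≠ 0 := by
      rintro rfl
      simp [hm'] at c2 c1
      exact c1 c2
    rw [show ψ ⬝ᵥ u / u m = -b / a by field_simp; linear_combination c2]
    exact div_mem (neg_mem hb) ha
  have k1 : ∀ l i, l ≠ m → φ l ≠ 0 → i ≠ l → u i / u m ∈ K := fun l i a1 a2 a3 => by
    simpa [e] using key (e l) (e i) (e_mem l) (e_mem i) (by simpa [e] using a2)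
      (by simp [e, a1.symm]) (by simp [e, a3])
  obtain ⟨l, l1, l2⟩ : ∃ l, l ≠ m ∧ φ l ≠ 0 := by
    by_contra hc
    push Not at hc
    obtain ⟨i, hi⟩ := Function.ne_iff.1 hφ
    have im : i = m := by_contra fun a => hi (hc i a)
    subst im
    have := h.orth h1
    rw [dotProduct, Finset.sum_eq_single i (fun j _ hj => by rw [hc j hj, zero_mul])
      (by simp)] at this
    exact mul_ne_zero hi hm' this
  refine ⟨u m, fun i => u i / u m, fun i => ?_, funext fun i => by simp; field_simp⟩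
  by_cases il : i = l
  swap
  · exact k1 l i l1 l2 il
  subst il
  obtain ⟨j, j1, j2⟩ : ∃ j : Fin 4, j ≠ i ∧ j ≠ m := by
    clear * -
    revert i m; decide
  by_cases h2 : φ i + φ j = 0
  · exact k1 j i j2 (fun h3 => l2 (by simpa [h3] using h2)) j1.symm
  · have := key (e i + e j) (e i - e j) (fun x => add_mem (e_mem _ _) (e_mem _ _))
      (fun x => sub_mem (e_mem _ _) (e_mem _ _)) (by simpa [e] using h2)
      (by simp [e, l1.symm, j2.symm]) (by simp [e, j1, j1.symm])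
    have h3 := add_mem this (k1 i j l1 l2 j1)
    convert h3 using 1
    simp [e]; ring

theorem rat (h : TS K T) (hL : Lam K T) (hs : Std4 T) (h1 : T u φ) (hu : u ≠ 0)
    (hφ : φ ≠ 0) : ∀ i j, vecMulVec u φ i j ∈ K := by
  obtain ⟨c, v, a1, rfl⟩ := rat_left h hL hs h1 hu hφ
  obtain ⟨d, ψ, b1, rfl⟩ := rat_left h.swap hL.swap hs.swap h1 hφ hu
  have h2 : c * d ∈ K := h.max (of_rat h hs a1 b1 (right_ne_zero_of_smul hu) (by
      simpa [left_ne_zero_of_smul hu, left_ne_zero_of_smul hφ] using h.orth h1))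
    (by rwa [← h.smul_iff, smul_smul, mul_comm] at h1) (right_ne_zero_of_smul hu)
    (right_ne_zero_of_smul hφ)
  intro i j
  convert mul_mem h2 (mul_mem (a1 i) (b1 j)) using 1
  simp [vecMulVec_apply]; ring

theorem one_mem_rat (i j : Fin 4) : (1 : M4 k) i j ∈ K := by
  rw [one_apply]; split_ifs <;> simp

theorem entries_mem (hG : Gen G) (h : TS K (TV G)) (hL : Lam K (TV G)) (hs : Std4 (TV G))
    {g : G4 k} (hg : g ∈ G) : ∀ i j, g.val i j ∈ K :=
  hG.ind (P := fun g => ∀ i j, g.val i j ∈ K) one_mem_rat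
    (fun a b ha hb i j => by
      rw [Units.val_mul, mul_apply]
      exact sum_mem fun l _ => mul_mem (ha _ _) (hb _ _))
    (fun u φ a b c i j => add_mem (one_mem_rat i j) (rat h hL hs a b c i j)) hg

theorem card_ge [Finite G] [Finite K] (h : TS K (TV G)) (hs : Std4 (TV G)) :
    oL (Nat.card K) ≤ Nat.card G := by
  classical
  let f : SL(4, K) →* G4 k := (GeneralLinearGroup.map K.subtype).comp SpecialLinearGroup.toGL
  have hf : Function.Injective f := fun a b hab => by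
    ext i j
    have := congrArg (fun g : G4 k => g.val i j) hab
    simpa [f] using this
  have ht := H57.sl_eq_top_of_transvections (G.comap f) fun i j hij c => by
    obtain ⟨g, g1, g2⟩ := (h.mem (hs i j hij) c.2).2
    change f _ ∈ G
    convert g1 using 1
    refine Units.ext (Eq.trans ?_ g2.symm)
    ext a b
    fin_cases i <;> fin_cases j <;> fin_cases a <;> fin_cases b <;>
      simp_all [f, e, SpecialLinearGroup.transvection_coe, vecMulVec_apply]
  have h1 : Nat.card SL(4, K) ≤ Nat.card G :=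
    Nat.card_le_card_of_injective (fun s => (⟨f s, (ht ▸ Subgroup.mem_top s : s ∈ G.comap f)⟩ : G))
      fun a b hab => hf (congrArg Subtype.val hab)
  let _ := Fintype.ofFinite K
  rw [H57.card_sl_fin_eq] at h1
  convert h1 using 1
  simp [oL, Finset.prod_range_succ, mul_assoc]

theorem jobTVL : JobTVL.{u} := fun k _ _ G _ K _ hG h hL hS => by
  obtain ⟨B, b⟩ := exists_std3 h hL hS
  obtain ⟨C, c⟩ := exists_std4 (h.pb B) (hL.pb B) b
  rw [pb_pb, ← tv_cg] at c
  have h' : TS K (TV (cg G (B * C))) := tv_cg (G := G) (B * C) ▸ h.pb _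
  have hL' : Lam K (TV (cg G (B * C))) := tv_cg (G := G) (B * C) ▸ hL.pb _
  refine ⟨fun g hg => ?_, card_cg (G := G) (B * C) ▸ card_ge h' c⟩
  have := entries_mem (hG.cg _) h' hL' c (conj_mem_cg.2 hg)
  rw [← trace_conj (B * C), ← Units.val_mul, ← Units.val_mul]
  exact sum_mem fun i _ => this i i

end H57.LD4
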