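import Cfsg.Agent.H57.LD4Form
import Cfsg.Agent.H57.LD4TV0a

/-! LD4, slots TVU1 and TVU2: the unitary form. -/

set_option autoImplicit false
set_option linter.unusedVariables false

namespace H57.LD4F

open Matrix H20.LD

universe u

variable {k : Type u} [Field k] {T : V4 k → V4 k → Prop} {K : Subfield k} {G : Subgroup (G4 k)}
  {u w z φ ψ χ : V4 k} {σ : k →+* k}

theorem mem_iff_pow (K : Subfield k) [Finite K] (x : k) : x ^ Nat.card K = x ↔ x ∈ K := by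
  have := Fintype.ofFinite K
  rw [Nat.card_eq_fintype_card]
  refine ⟨fun h => ?_, fun h => congrArg Subtype.val (FiniteField.pow_card (⟨x, h⟩ : K))⟩
  have hs : (Polynomial.X ^ Fintype.card K - Polynomial.X : Polynomial K).Splits := by
    rw [Polynomial.splits_iff_card_roots, FiniteField.roots_X_pow_card_sub_X,
      FiniteField.X_pow_card_sub_X_natDegree_eq K Fintype.one_lt_card]
    simp
  obtain ⟨t, rfl⟩ := hs.mem_range_of_isRoot (FiniteField.X_pow_card_sub_X_ne_zero K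
    Fintype.one_lt_card) (i := algebraMap K k) (x := x) (by simp [h])
  exact t.2

theorem exists_frob (K : Subfield k) [Finite K] : ∃ σ : k →+* k, ∀ x, σ x = x ^ Nat.card K :=
  have := Fintype.ofFinite K
  ⟨FiniteField.frobeniusAlgHom K k, fun x => by rw [Nat.card_eq_fintype_card]; rfl⟩

theorem noFat_aux (h : TS K T) (hL : Lam K T) (hS : H20.LD.Sym T) (h1 : T u φ) (h2 : T u ψ)
    (hu : u ≠ 0) (hφ : φ ≠ 0) : ∃ c : k, ψ = c • φ := by
  obtain ⟨w, χ, a1, a2, a3⟩ := h.exists_opp hu hφ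
  obtain ⟨a, ha, b, hb, c1, c2⟩ := h.exists_axis hL h1 h2 a1 a3
  have e : a • φ + b • ψ = 0 := by_contra fun e =>
    a3 (hS _ _ _ _ (h.addR (h.memR h1 ha) (h.memR h2 hb)) a1 e (right_ne_of_dot a2) c2)
  have b0 : b ≠ 0 := by
    rintro rfl
    simp [hφ] at e c1
    exact c1 e
  exact ⟨-(a / b), by
    rw [← inv_smul_smul₀ b0 ψ, eq_neg_of_add_eq_zero_right e, smul_neg, smul_smul, neg_smul,
      div_eq_inv_mul]⟩

theorem noFat (h : TS K T) (hL : Lam K T) (hS : H20.LD.Sym T) : NoFat T :=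
  ⟨fun u φ ψ a b c d => noFat_aux h hL hS a b c d,
    fun u w φ a b c d => noFat_aux h.swap hL.swap hS.swap a b d c⟩

theorem res_opp (h : TB T) (hS : H20.LD.Sym T) (hN : NoFat T) : H25.Tv3.Opp (res T) := by
  intro u φ w ψ h1 h2 hφ hψ e
  by_contra h0
  have n : ∀ {a : Fin 3 → k}, a ≠ 0 → ex a ≠ 0 := fun h => mt ex_eq_zero.1 h
  have hw := H25.Tv3.right_ne_zero h0
  have e' : ψ ⬝ᵥ u = 0 := by
    rw [← ex_dot] at e ⊢
    exact hS _ _ _ _ h1 h2 (n hφ) (n hw) e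
  obtain ⟨c, rfl⟩ := H25.Tv3.smul_of_kill h0 (h.res.orth h1) e e' (h.res.orth h2) hψ
  obtain ⟨d, hd⟩ := hN.2 _ _ _ h2 ((h.res.smul_iff c).2 h1) (n hw) (n hψ)
  have e2 : c • u = d • w := by rw [← sub_eq_zero, ← ex_eq_zero, ex_sub, hd, ex_smul, sub_self]
  have := congrArg (· ⨯₃ w) e2
  simp [h0, left_ne_zero_of_smul hφ] at this

theorem lam_mem (h : TS K T) (hL : Lam K T) (hS : H20.LD.Sym T) (hE : Ext2 T) (h1 : T u φ)
    (h2 : T w ψ) : φ ⬝ᵥ w * ψ ⬝ᵥ u ∈ K := by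
  by_cases a1 : φ ⬝ᵥ w = 0
  · simp [a1]
  by_cases a2 : ψ ⬝ᵥ u = 0
  · simp [a2]
  obtain ⟨z, χ, hn⟩ := hE _ _ _ _ h1 h2 a1 a2
  obtain ⟨B, t, b0, b1, -, c0, c1, -⟩ := h.res hn
  simpa using t.lam_mem (res_opp (h.pb B).toTB (hS.pb B) ((noFat h hL hS).pb B)) (hL.pb B).res
    (u := Pi.single 0 1) (φ := ![0, φ ⬝ᵥ w, φ ⬝ᵥ z]) (w := Pi.single 1 1)
    (ψ := ![ψ ⬝ᵥ u, 0, ψ ⬝ᵥ z]) (by rw [res, pb, b0, c0]; exact h1) (by rw [res, pb, b1, c1]; exact h2)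

theorem tau (h : TS K T) (hL : Lam K T) (hS : H20.LD.Sym T) (hE : Ext2 T)
    (hσ : ∀ x, σ x = x ↔ x ∈ K) : Tau σ T := by
  intro u φ w ψ z χ h1 h2 h3
  by_cases hd : cyc u φ w ψ z χ + cyc u φ z χ w ψ = 0
  · have l12 := lam_mem h hL hS hE h1 h2
    have l23 := lam_mem h hL hS hE h2 h3
    have l31 := lam_mem h hL hS hE h3 h1
    have l4 := lam_mem h hL hS hE h1 (h.conj h3 h2)
    simp only [dotProduct_add, sub_dotProduct, smul_dotProduct, dotProduct_smul, smul_eq_mul] at l4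
    have p1 := (hσ _).2 (mul_mem (mul_mem l12 l23) l31)
    have p2 := (hσ _).2 (add_mem (sub_mem l4 l12) (mul_mem l23 l31))
    rw [show φ ⬝ᵥ w * ψ ⬝ᵥ u * (ψ ⬝ᵥ z * χ ⬝ᵥ w) * (χ ⬝ᵥ u * φ ⬝ᵥ z) =
      cyc u φ w ψ z χ * cyc u φ z χ w ψ by simp only [cyc]; ring, map_mul] at p1
    rw [show (φ ⬝ᵥ w + χ ⬝ᵥ w * φ ⬝ᵥ z) * (ψ ⬝ᵥ u - ψ ⬝ᵥ z * χ ⬝ᵥ u) - φ ⬝ᵥ w * ψ ⬝ᵥ u +
      ψ ⬝ᵥ z * χ ⬝ᵥ w * (χ ⬝ᵥ u * φ ⬝ᵥ z) = cyc u φ z χ w ψ - cyc u φ w ψ z χ by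
        simp only [cyc]; ring, map_sub] at p2
    rw [eq_neg_of_add_eq_zero_right hd] at p1 p2 ⊢
    rw [map_neg] at p1 p2
    rw [neg_neg]
    generalize cyc u φ w ψ z χ = t at p1 p2
    exact sub_eq_zero.1 (mul_self_eq_zero.1 (by linear_combination -p1 + t * p2))
  have hn : ND T u φ w ψ z χ := ⟨h1, h2, h3, hd⟩
  obtain ⟨B, t, b0, b1, b2, c0, c1, c2⟩ := h.res hn
  simpa [cyc] using t.tau (res_opp (h.pb B).toTB (hS.pb B) ((noFat h hL hS).pb B)) (hL.pb B).res hσ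
    (u := Pi.single 0 1) (φ := ![0, φ ⬝ᵥ w, φ ⬝ᵥ z]) (w := Pi.single 1 1)
    (ψ := ![ψ ⬝ᵥ u, 0, ψ ⬝ᵥ z]) (z := Pi.single 2 1) (χ := ![χ ⬝ᵥ u, χ ⬝ᵥ w, 0])
    (by rw [res, pb, b0, c0]; exact h1) (by rw [res, pb, b1, c1]; exact h2)
    (by rw [res, pb, b2, c2]; exact h3) (by simpa using (nd_ne hS hn).1)
    (by simpa using (nd_ne hS hn.rot).1) (by simpa using (nd_ne hS hn.rot.rot).1)

theorem jobTVU12 : JobTVU12.{u} := fun k _ _ G _ K _ hG h hL hS hE => by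
  obtain ⟨σ, hσ⟩ := exists_frob K
  exact ⟨noFat h hL hS, fun u φ w ψ a b => lam_mem h hL hS hE a b, fun u φ w ψ z χ a b c => by
    rw [← hσ]; exact tau h hL hS hE (fun x => by rw [hσ, mem_iff_pow]) _ _ _ _ _ _ a b c⟩

/-! ### the unitary form -/

open H59 in
theorem exists_orth {L : Type*} [Field L] [Finite L] {σ : L →+* L} (hσ : σ ≠ RingHom.id L)
    (hσ2 : ∀ a, σ (σ a) = a) {H : Matrix (Fin 4) (Fin 4) L} (h1 : ∀ i j, σ (H i j) = H j i)
    (h2 : H.det ≠ 0) : ∃ C : Matrix (Fin 4) (Fin 4) L, (C.map σ)ᵀ * H * C = 1 := by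
  have h : IsHerm ((stdForm σ (Fin 4)).compl₂ (toLin' H)) :=
    ⟨hσ, hσ2, fun x y => by
      simp [stdForm_apply, mulVec, dotProduct, Fin.sum_univ_four, h1, hσ2]; ring,
      fun x hx => funext fun i => by
        simpa using congrFun (eq_zero_of_vecMul_eq_zero (v := σ ∘ x) h2 (funext fun i => by
          simpa [stdForm_apply, vecMul, dotProduct] using hx (Pi.single i 1))) i⟩
  obtain ⟨e, -, he⟩ := h.exists_orthonormal_mem 4 (W := ⊤) (by simp [h.perp_top]) (by simp)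
  refine ⟨(of e)ᵀ, ?_⟩
  ext i j
  rw [one_apply, ← he]
  simp [stdForm_apply, mulVec, dotProduct, Fin.sum_univ_four, mul_apply]; ring

theorem finite_fix {q : ℕ} (hq : 1 < q) (hσ : ∀ x, σ x = x ^ q) :
    Finite (RingHom.eqLocusField (σ.comp σ) (RingHom.id k)) := by
  classical
  have h1 : 1 < q * q := by nlinarith
  refine Set.Finite.subset ((Polynomial.X ^ (q * q) - Polynomial.X : Polynomial k).roots.toFinset
    ).finite_toSet fun x hx => ?_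
  have : σ (σ x) = x := hx
  rw [hσ, hσ, ← pow_mul] at this
  simp [FiniteField.X_pow_card_sub_X_ne_zero k h1, this]

theorem jobTVU2 : JobTVU2.{u} := fun k _ _ G _ K _ hG h hS hn hU => by
  obtain ⟨σ, hσ⟩ := exists_frob K
  have ht : Tau σ (TV G) := fun u φ w ψ z χ a b c => by rw [hσ]; exact hU.tau _ _ _ _ _ _ a b c
  let L := RingHom.eqLocusField (σ.comp σ) (RingHom.id k)
  have : Finite L := finite_fix Finite.one_lt_card hσ
  let σ₀ : L →+* L := (σ.comp L.subtype).codRestrict L fun x => congrArg σ x.2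
  have h2 : ∀ a, σ₀ (σ₀ a) = a := fun a => Subtype.ext a.2
  have h1 : σ₀ ≠ RingHom.id L := fun h0 => by
    obtain ⟨u, φ, w, ψ, z, χ, a, b, c, d⟩ := hn
    have e := congrArg Subtype.val (DFunLike.congr_fun h0 (⟨cyc u φ w ψ z χ, show σ (σ _) = _ by
      rw [ht _ _ _ _ _ _ a b c, map_neg, ht _ _ _ _ _ _ a c b, neg_neg]; rfl⟩ : L))
    exact d (add_eq_zero_iff_eq_neg.2 (e.symm.trans (ht _ _ _ _ _ _ a b c)))
  obtain ⟨B, H, f⟩ := exists_fm h hS ht fun u φ w ψ a b => by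
    have e : σ (-(φ ⬝ᵥ w * ψ ⬝ᵥ u)) = -(φ ⬝ᵥ w * ψ ⬝ᵥ u) := by
      rw [hσ, mem_iff_pow]; exact neg_mem (hU.lam _ _ _ _ a b)
    obtain ⟨n, hn⟩ := H59.exists_norm_eq' h1 h2 (μ := ⟨_, (congrArg σ e).trans e⟩) (Subtype.ext e)
    exact ⟨n, n.2, congrArg Subtype.val hn⟩
  refine ⟨fun g hg => by rw [← hσ]; exact trace_of hG h f hg, ?_⟩
  obtain ⟨θ, θ0, hθ⟩ := H59.exists_trace_zero_ne_zero h1 h2
  have hθ' : σ θ = -θ := eq_neg_of_add_eq_zero_right (congrArg Subtype.val hθ)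
  have θ0' : (θ : k) ≠ 0 := fun h0 => θ0 (Subtype.ext h0)
  let A : Matrix (Fin 4) (Fin 4) L := of fun i j => ⟨H i j, show σ (σ _) = _ by
    rw [f.skew, map_neg, f.skew, neg_neg]; rfl⟩
  have hA : A.map L.subtype = H := rfl
  obtain ⟨C, hC⟩ := exists_orth h1 h2 (H := θ • A)
    (fun i j => Subtype.ext (show σ (θ * H i j) = θ * H j i by rw [map_mul, hθ', f.skew]; ring))
    (by
      rw [det_smul]
      refine mul_ne_zero (pow_ne_zero _ θ0) fun h0 => f.det ?_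
      rw [← hA, ← RingHom.mapMatrix_apply, ← RingHom.map_det, h0, map_zero])
  have hD : ((θ : k) • (((C.map L.subtype).map σ)ᵀ * H)) * C.map L.subtype = 1 := by
    have := congrArg (·.map L.subtype) hC
    simp only [Matrix.map_mul, Matrix.map_one _ (map_zero _) (map_one _),
      show (θ • A).map L.subtype = (θ : k) • H from rfl] at this
    rw [← this, Matrix.mul_smul]; rfl
  let D : G4 k := ⟨_, _, mul_eq_one_comm.1 hD, hD⟩
  have d1 : ∀ x : V4 k, σ ∘ (D.val *ᵥ x) = (σ ∘ x) ᵥ* ((C.map L.subtype).map σ)ᵀ := fun x => by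
    funext i
    simp [D, mulVec, vecMul, dotProduct, mul_comm]
  have d2 : ∀ x : V4 k, σ ∘ σ ∘ (D.val *ᵥ x) = D.val *ᵥ (σ ∘ σ ∘ x) := fun x => by
    funext i
    simp [D, mulVec, dotProduct, show ∀ x : L, σ (σ x) = x from fun x => x.2]
  refine ⟨B * D, fun u φ a => ?_⟩
  have q0 : Nat.card K ≠ 0 := Nat.card_pos.ne'
  by_cases hu : u = 0
  · exact ⟨0, 0, by simp [q0], by simp [q0], by simp [q0], by simp [hu]⟩
  by_cases hφ : φ = 0
  · exact ⟨0, 0, by simp [q0], by simp [q0], by simp [q0], by simp [hφ]⟩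
  rw [← pb_pb] at a
  obtain ⟨s, s0, b1, b2⟩ := f.flag _ _ a (mulVec_ne D hu) (vecMul_ne D⁻¹ hφ)
  rw [← mulVec_smul] at b1 b2
  rw [d2] at b1
  have b3 : σ ∘ σ ∘ (s • u) = s • u := by
    simpa only [mulVec_mulVec, Units.inv_mul, one_mulVec] using congrArg ((D⁻¹).val *ᵥ ·) b1
  have b4 : s⁻¹ • φ = (θ : k)⁻¹ • σ ∘ (s • u) := by
    have := congrArg (· ᵥ* D.val) b2
    simp only [smul_vecMul, vecMul_vecMul, Units.inv_mul, vecMul_one, d1] at this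
    rw [this, eq_inv_smul_iff₀ θ0', ← vecMul_smul, ← Matrix.smul_mul]
    exact (congrArg _ hD).trans (vecMul_one _)
  have q2 : ∀ x : k, x ^ Nat.card K ^ 2 = σ (σ x) := fun x => by rw [hσ, hσ, sq, pow_mul]
  refine ⟨s • u, (θ : k)⁻¹, fun i => (q2 _).trans (congrFun b3 i), ?_, ?_, ?_⟩
  · rw [q2, map_inv₀, map_inv₀, show σ (σ θ) = θ from θ.2]
  · rw [← hσ, map_inv₀, hθ', inv_neg, add_neg_cancel]
  · rw [show (fun i => (s • u) i ^ Nat.card K) = σ ∘ (s • u) from funext fun i => (hσ _).symm,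
      smul_vecMulVec, ← vecMulVec_smul, ← b4]
    simp [smul_smul, s0]

end H57.LD4F
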