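import Cfsg.Agent.H57.LD4TVU
import Cfsg.Agent.H62.UComp

/-! LD4, slot TVU3: a unitary system with a nondegenerate triple generates `SU₄(q)`. -/

set_option autoImplicit false
set_option linter.unusedVariables false

namespace H57.LD4F

open Matrix H20.LD H59 H62 Module

universe u

section herm

variable {L V : Type*} [Field L] [Fintype L] [AddCommGroup V] [Module L V] [FiniteDimensional L V]
  {q : ℕ} (hF : Fintype.card L = q ^ 2) {B : V →ₛₗ[frob hF] V →ₗ[L] L} {M : Subgroup (V ≃ₗ[L] V)}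

theorem goodU_of_triple (h : IsHerm B) (hq : ∃ τ : L, frob hF τ = τ ∧ τ ≠ 0 ∧ τ ≠ 1)
    {p : Fin 3 → V} (hp : ∀ i, FullU M B (p i)) (hd : (of fun i j => B (p i) (p j)).det ≠ 0) :
    GoodU M B (Submodule.span L (Set.range p)) := by
  set W := Submodule.span L (Set.range p)
  have pW : ∀ i, p i ∈ W := fun i => Submodule.subset_span ⟨i, rfl⟩
  have k1 : ∀ y : Fin 3 → L, (∀ i, B (p i) (∑ j, y j • p j) = 0) → y = 0 := fun y hy =>
    eq_zero_of_mulVec_eq_zero hd (funext fun i => by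
      simpa [mulVec, dotProduct, mul_comm] using hy i)
  have hW : Disjoint W (perp B W) := Submodule.disjoint_def.2 fun v v1 v2 => by
    obtain ⟨y, rfl⟩ := (Submodule.mem_span_range_iff_exists_fun L).1 v1
    simp [k1 y fun i => v2 _ (pW i)]
  have h3 : finrank L W = 3 := (finrank_span_eq_card (Fintype.linearIndependent_iff.2
    fun y hy => congrFun (k1 y fun i => by rw [hy, map_zero]))).trans (by simp)
  obtain ⟨e, e1, e2⟩ := h.exists_orthonormal_mem 3 hW h3
  let ι : (Fin 3 → L) →ₗ[L] V := Fintype.linearCombination L e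
  have i1 : ∀ x y, B (ι x) (ι y) = uForm hF 3 x y := fun x y => by
    simp [ι, Fintype.linearCombination_apply, form_smul_left, e2, stdForm_apply, mul_comm]
  have h' := isHerm_uForm hF 3
  have i2 : Function.Injective ι := (injective_iff_map_eq_zero ι).2 fun x hx =>
    h'.nondeg x fun y => by rw [← i1, hx]; simp
  have i3 : LinearMap.range ι = W := Submodule.eq_of_le_of_finrank_eq
    (by rintro _ ⟨x, rfl⟩
        rw [Fintype.linearCombination_apply]
        exact W.sum_mem fun i _ => W.smul_mem _ (e1 i))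
    (by rw [LinearMap.finrank_range_of_inj i2, h3]; simp)
  have i4 : ∀ x, ι x ∈ W := fun x => i3 ▸ ⟨x, rfl⟩
  let M3 : Subgroup ((Fin 3 → L) ≃ₗ[L] (Fin 3 → L)) :=
    { carrier := {g | ∃ f ∈ M, (∀ y, f (ι y) = ι (g y)) ∧ ∀ z ∈ perp B W, f z = z}
      one_mem' := ⟨1, M.one_mem, fun _ => rfl, fun _ _ => rfl⟩
      mul_mem' := by
        rintro a b ⟨f, f1, f2, f3⟩ ⟨g, g1, g2, g3⟩
        exact ⟨f * g, M.mul_mem f1 g1, fun y => by simp [g2, f2], fun z hz => by
          simp [g3 z hz, f3 z hz]⟩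
      inv_mem' := by
        rintro a ⟨f, f1, f2, f3⟩
        exact ⟨f⁻¹, M.inv_mem f1, fun y => f.symm_apply_eq.2 (by rw [f2]; simp), fun z hz =>
          f.symm_apply_eq.2 (f3 z hz).symm⟩ }
  have t1 : ∀ y, FullU M B (ι y) → FullU M3 (uForm hF 3) y := fun y hy =>
    ⟨by rw [← i1, hy.1], fun c hc => by
      obtain ⟨g, -, g1⟩ := h'.exists_transv (p := y) (by rw [← i1, hy.1]) hc
      obtain ⟨f, f1, f2⟩ := hy.2 c hc
      exact ⟨g, ⟨f, f1, fun x => by rw [f2, g1, i1, map_add, map_smul], fun z hz => by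
        rw [f2, hz _ (i4 y)]; simp⟩, g1⟩⟩
  have t2 : ∀ y, FullU M3 (uForm hF 3) y → FullU M B (ι y) := fun y hy =>
    ⟨by rw [i1, hy.1], fun c hc => by
      obtain ⟨g, ⟨f, f1, f2, f3⟩, g1⟩ := hy.2 c hc
      refine ⟨f, f1, fun v => ?_⟩
      obtain ⟨⟨x, hx⟩, z, rfl⟩ := exists_add_eq_of_isCompl (h.isCompl_perp hW) v
      obtain ⟨x, rfl⟩ : x ∈ LinearMap.range ι := i3 ▸ hx
      rw [map_add, f2, f3 _ z.2, g1, map_add, map_smul, map_add, i1, z.2 _ (i4 y), add_zero]
      abel⟩
  choose a ha using fun i => (i3 ▸ pW i : p i ∈ LinearMap.range ι)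
  refine ⟨hW, h3.ge, locSU_of_forall_fullU h hW (Or.inr hq) fun v hv v0 => ?_⟩
  obtain ⟨y, rfl⟩ : v ∈ LinearMap.range ι := i3 ▸ hv
  refine t2 y (H25.Tv3.fullU_all hF (t1 _ (ha 0 ▸ hp 0)) (t1 _ (ha 1 ▸ hp 1)) (t1 _ (ha 2 ▸ hp 2))
    (fun h0 => hd ?_) y (by rw [← i1, v0]))
  have b2 : (of a).det = 0 := by
    rw [← h0, triple_product_permutation, triple_product_eq_det]
    congr 1; ext i j; fin_cases i <;> rfl
  rw [show (of fun i j => B (p i) (p j)) = (of a).map (frob hF) * (of a)ᵀ by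
    ext i j; rw [of_apply, ← ha, ← ha, i1]; rfl, det_mul, det_transpose, b2, mul_zero]

end herm

variable {k : Type u} [Field k] {K : Subfield k} {G : Subgroup (G4 k)} {u w φ ψ : V4 k}

theorem card_fix [IsAlgClosed k] (K : Subfield k) [Finite K] {σ : k →+* k}
    (hσ : ∀ x, σ x = x ^ Nat.card K) :
    Nat.card (RingHom.eqLocusField (σ.comp σ) (RingHom.id k)) = Nat.card K ^ 2 := by
  classical
  have := Fintype.ofFinite K
  obtain ⟨p, hp⟩ := CharP.exists K
  obtain ⟨n, pp, hn⟩ := FiniteField.card K p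
  have : CharP k p := (RingHom.charP_iff K.subtype K.subtype.injective p).1 hp
  have h1 : 1 < Nat.card K ^ 2 := Nat.one_lt_pow two_ne_zero Finite.one_lt_card
  have h2 := Polynomial.card_rootSet_eq_natDegree (K := k) (galois_poly_separable (K := k) p
    (Nat.card K ^ 2) (by
      rw [Nat.card_eq_fintype_card, hn, ← pow_mul]
      exact dvd_pow_self p (by simp))) (IsAlgClosed.splits _)
  rw [FiniteField.X_pow_card_sub_X_natDegree_eq k h1, ← Nat.card_eq_fintype_card] at h2
  rw [← h2]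
  refine Nat.card_congr (Equiv.subtypeEquivRight fun x => ?_)
  change σ (σ x) = x ↔ _
  rw [hσ, hσ, ← pow_mul, ← sq, Polynomial.mem_rootSet]
  simp only [ne_eq, FiniteField.X_pow_card_sub_X_ne_zero k h1, not_false_eq_true, true_and]
  simp [sub_eq_zero]

theorem eq_smul_of_vecMulVec (h : vecMulVec u φ = vecMulVec w ψ) (hu : u ≠ 0) (hφ : φ ≠ 0) :
    ∃ c d : k, u = c • w ∧ φ = d • ψ := by
  obtain ⟨a, ha⟩ := exists_dot_one hφ
  obtain ⟨b, hb⟩ := exists_dot_one hu
  have h1 := congrArg (· *ᵥ a) h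
  have h2 := congrArg (b ᵥ* ·) h
  simp only [vecMulVec_mulVec, op_smul_eq_smul, vecMul_vecMulVec, dotProduct_comm φ, ha, hb,
    one_smul] at h1 h2
  exact ⟨_, _, h1, h2⟩

theorem cyc_eq (u φ w ψ z χ : V4 k) :
    cyc u φ w ψ z χ = (vecMulVec u φ * vecMulVec w ψ * vecMulVec z χ).trace := by
  simp [cyc, vecMulVec_mul_vecMulVec, trace_vecMulVec, dotProduct_comm u]
  ring

theorem card_ge_su [IsAlgClosed k] [Finite G] [Finite K] (h : TS K (TV G)) (hn : HasND (TV G))
    (hU : UF (TV G) (Nat.card K)) (h3 : 3 ≤ Nat.card K) : oU (Nat.card K) ≤ Nat.card G := by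
  obtain ⟨σ, hσ⟩ := exists_frob K
  let L := RingHom.eqLocusField (σ.comp σ) (RingHom.id k)
  have : Finite L := finite_fix Finite.one_lt_card hσ
  have := Fintype.ofFinite L
  have hF : Fintype.card L = Nat.card K ^ 2 := by rw [← Nat.card_eq_fintype_card, card_fix K hσ]
  have fr : ∀ x : L, ((frob hF x : L) : k) = σ x := fun x => by rw [hσ, frob_apply]; simp
  have q2 : ∀ x : k, x ^ Nat.card K ^ 2 = σ (σ x) := fun x => by rw [hσ, hσ, sq, pow_mul]
  have hK : ∀ x, σ x = x ↔ x ∈ K := fun x => by rw [hσ, mem_iff_pow]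
  let H : Subgroup (GL (Fin 4) L) := G.comap (GeneralLinearGroup.map L.subtype)
  let M := H.map (glEquiv (Fin 4) L).toMonoidHom
  have hh := isHerm_uForm hF 4
  have bf : ∀ x y : Fin 4 → L, ((uForm hF 4 x y : L) : k) =
      (σ ∘ L.subtype ∘ x) ⬝ᵥ (L.subtype ∘ y) := fun x y => by
    simp [stdForm_apply, dotProduct, fr]
  have key : ∀ u φ, TV G u φ → u ≠ 0 → φ ≠ 0 → ∃ (p : Fin 4 → L) (a : k), FullU M (uForm hF 4) p ∧
      vecMulVec u φ = vecMulVec (a • L.subtype ∘ p) (σ ∘ L.subtype ∘ p) := fun u φ t hu hφ => by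
    obtain ⟨x, a, x1, a1, a2, e⟩ := hU u φ t
    let p : Fin 4 → L := fun i => ⟨x i, (q2 _).symm.trans (x1 i)⟩
    replace e : vecMulVec u φ = vecMulVec (a • L.subtype ∘ p) (σ ∘ L.subtype ∘ p) :=
      e.trans (congrArg _ (funext fun i => (hσ _).symm))
    have a0 : a ≠ 0 := by rintro rfl; simp [hu, hφ] at e
    have p0 : uForm hF 4 p p = 0 := Subtype.ext (by
      have := congrArg trace e
      rw [trace_vecMulVec, trace_vecMulVec, dotProduct_comm, t.1, smul_dotProduct, eq_comm,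
        smul_eq_zero, or_iff_right a0, dotProduct_comm] at this
      exact (bf p p).trans this)
    refine ⟨p, a, ⟨p0, fun c hc => ?_⟩, e⟩
    have hc' : σ c = -c := eq_neg_of_add_eq_zero_right (by rw [← fr]; exact congrArg Subtype.val hc)
    have t1 := h.mem t ((hK (c / a)).1 (by
      rw [map_div₀, hc', hσ a, eq_neg_of_add_eq_zero_right a2, neg_div_neg_eq]))
    have o : (c • frob hF ∘ p) ⬝ᵥ p = 0 := by rw [smul_dotProduct]; exact smul_eq_zero_of_right _ p0
    refine ⟨_, ⟨tv p (c • frob hF ∘ p) o, ?_, rfl⟩, fun v => ?_⟩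
    · change GeneralLinearGroup.map L.subtype _ ∈ G
      convert t1.mem using 1
      refine Units.ext ?_
      rw [tv_val, smul_vecMulVec, e, ← smul_vecMulVec, smul_smul, div_mul_cancel₀ _ a0]
      ext i j
      by_cases hij : i = j <;> simp [tv, hij, vecMulVec_apply, fr, mul_left_comm]
    · change (1 + vecMulVec _ _) *ᵥ v = _
      rw [tv_mulVec, smul_dotProduct]; rfl
  obtain ⟨τ, τ0, τ1⟩ : ∃ τ : K, τ ≠ 0 ∧ τ ≠ 1 := by
    by_contra hc
    push Not at hc
    have := Nat.card_le_card_of_surjective (fun b : Bool => if b then (0 : K) else 1) fun x => by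
      by_cases h0 : x = 0
      · exact ⟨true, h0.symm⟩
      · exact ⟨false, (hc x h0).symm⟩
    simp at this
    omega
  have τ2 := (hK τ).2 τ.2
  obtain ⟨u, φ, w, ψ, z, χ, n1, n2, n3, n4⟩ := hn
  obtain ⟨p1, a1, f1, e1⟩ := key _ _ n1 (fun e => n4 (by simp [cyc, e])) fun e => n4 (by simp [cyc, e])
  obtain ⟨p2, a2, f2, e2⟩ := key _ _ n2 (fun e => n4 (by simp [cyc, e])) fun e => n4 (by simp [cyc, e])
  obtain ⟨p3, a3, f3, e3⟩ := key _ _ n3 (fun e => n4 (by simp [cyc, e])) fun e => n4 (by simp [cyc, e])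
  have hG := goodU_of_triple hF hh ⟨⟨τ, (congrArg σ τ2).trans τ2⟩, Subtype.ext ((fr _).trans τ2),
      fun e => τ0 (Subtype.ext (congrArg (fun x : L => x.1) e)),
      fun e => τ1 (Subtype.ext (congrArg (fun x : L => x.1) e))⟩ (M := M) (p := ![p1, p2, p3])
    (fun i => by fin_cases i; exacts [f1, f2, f3]) fun e => n4 (by
      rw [cyc_eq, cyc_eq, e1, e2, e3, ← cyc_eq, ← cyc_eq]
      simp only [cyc, dotProduct_smul, ← bf, smul_eq_mul]
      simp [det_fin_three, f1.1, f2.1, f3.1] at e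
      have := congrArg Subtype.val e
      simp only [Subfield.coe_add, Subfield.coe_mul, Subfield.coe_zero] at this
      linear_combination (a1 * a2 * a3) * this)
  set W := Submodule.span L (Set.range ![p1, p2, p3])
  have hT : uSub M (uForm hF 4) W = ⊤ := by
    let A : Submodule k (V4 k) :=
      { carrier := {v | ∀ n ∈ perp (uForm hF 4) (uSub M (uForm hF 4) W), (σ ∘ L.subtype ∘ n) ⬝ᵥ v = 0}
        add_mem' := fun ha hb n hn => by rw [dotProduct_add, ha n hn, hb n hn, add_zero]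
        zero_mem' := fun _ _ => by simp
        smul_mem' := fun c x hx n hn => by rw [dotProduct_smul, hx n hn, smul_zero] }
    have mA : ∀ p ∈ uSub M (uForm hF 4) W, L.subtype ∘ p ∈ A := fun p hp n hn => by
      rw [← bf, hh.eq_zero_comm.1 (hn p hp)]; rfl
    rcases h.irr A (fun u φ t => by
      by_cases hu : u = 0
      · simp [hu]
      by_cases hφ : φ = 0
      · simp [hφ]
      obtain ⟨p, a, f, e⟩ := key u φ t hu hφ
      obtain ⟨c, d, rfl, rfl⟩ := eq_smul_of_vecMulVec e hu hφ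
      exact (f.mem_uSub_or hh W).imp (fun b => A.smul_mem _ (A.smul_mem _ (mA p b)))
        fun b v hv => by rw [smul_dotProduct, hv p b, smul_zero]) with e | e
    · have := (Submodule.eq_bot_iff _).1 e _ (mA p1 (hG.le_uSub hh (Submodule.subset_span ⟨0, rfl⟩)))
      rw [this] at e1
      exact absurd (by simp [cyc_eq, e1]) n4
    · rw [← hh.perp_perp (uSub M (uForm hF 4) W), (Submodule.eq_bot_iff (perp _ (uSub _ _ _))).2]
      · exact eq_top_iff.2 fun v _ x hx => by simp [(Submodule.mem_bot _).1 hx]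
      · intro n hn
        funext i
        simpa using (e ▸ Submodule.mem_top : Pi.single i 1 ∈ A) n hn
  have hM := hG.mem_of_top hh hT (by simp)
  have c1 := hh.card_sisom hF (by simp)
  have c2 : Nat.card (sisom (uForm hF 4)) = oU (Nat.card K) := by
    refine Nat.eq_of_mul_eq_mul_left (Nat.succ_pos (Nat.card K)) (c1.trans ?_)
    simp [H59.ordGU, Finset.prod_range_succ, Nat.even_iff, oU]
    ring
  have : Finite H := inferInstance
  have c3 : Nat.card H ≤ Nat.card G := Nat.card_le_card_of_injective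
    (fun g : H => (⟨_, g.2⟩ : G)) fun a b e => Subtype.ext (Units.ext (by
      ext i j
      exact congrArg (fun g : G => g.1.val i j) e))
  rw [← c2]
  refine le_trans ?_ c3
  rw [← Subgroup.card_map_of_injective (f := (glEquiv (Fin 4) L).toMonoidHom)
    (glEquiv (Fin 4) L).injective]
  have : Finite M := Finite.of_surjective _ ((glEquiv (Fin 4) L).toMonoidHom.subgroupMap_surjective H)
  exact Subgroup.card_le_of_le hM

theorem jobTVU3 : JobTVU3.{u} := fun k _ _ G _ K _ hG h hn B hU h3 => by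
  rw [← card_cg (G := G) B]
  refine card_ge_su ?_ ?_ ?_ h3 <;> rw [tv_cg]
  exacts [h.pb B, hn.pb B, hU]

end H57.LD4F
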