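import Cfsg.Agent.H57.LD4TV0a
import Cfsg.Agent.H59.SU
import Cfsg.Agent.H29.Burnside
import Cfsg.Agent.H54.SpCard
import Cfsg.Agent.S0245
import Cfsg.Agent.S0247
import Cfsg.Agent.S0286
import Cfsg.Agent.S0292
import Cfsg.Agent.S0301
import Cfsg.Agent.S0480

/-! LD4, slot TVU4: simple 3-transposition groups have order at least 25920. -/

set_option autoImplicit false
set_option linter.unusedVariables false

namespace H57.LD4F

open Cfsg Matrix H20.LD

universe u

theorem ordGU_ge (n : ℕ) : 233280 ≤ H59.ordGU 2 (n + 5) := by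
  induction n with
  | zero => decide
  | succ n ih =>
    rw [show n + 1 + 5 = n + 5 + 1 by ring, H59.ordGU_succ]
    refine ih.trans (Nat.le_mul_of_pos_left _ (Nat.mul_pos (by positivity) ?_))
    have : 1 < 2 ^ (n + 5 + 1) := Nat.one_lt_two_pow (by omega)
    split_ifs <;> omega

theorem card_ge_of_three {G : Type*} [Group G] [Finite G] [IsSimpleGroup G]
    (hna : ∃ x y : G, x * y ≠ y * x) {D : Set G} (hD : IsThreeTranspositionClass D) :
    25920 ≤ Nat.card G := by
  have hs : ¬ Nat.card G ∣ 2 ^ 4 * 3 ^ 4 := fun h => by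
    obtain ⟨x, y, e⟩ := hna
    exact e (IsSimpleGroup.comm_iff_isSolvable.2
      (H29.isSolvable_of_card_dvd_pow_mul_pow Nat.prime_two Nat.prime_three h) x y)
  have : Fact (Nat.Prime 3) := ⟨Nat.prime_three⟩
  have hp := Nat.card_pos (α := G)
  rcases Cfsg.Agent.S0480.result hna hD with ⟨n, ⟨e⟩⟩ | ⟨F, _, _, n, hF, ⟨e⟩⟩ | ⟨m, ⟨e⟩⟩ | h | h
  · have c := (Nat.card_congr e.toEquiv).trans (Cfsg.Agent.S0245.result (ZMod.card 2) n)
    obtain rfl | rfl | rfl | rfl | h4 : n = 0 ∨ n = 1 ∨ n = 2 ∨ n = 3 ∨ 4 ≤ n := by omega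
    · exact absurd (by rw [c]; decide) hs
    · exact absurd (by rw [c]; decide) hs
    · obtain ⟨f⟩ := Cfsg.Agent.S0247.result (ZMod.card 2)
      have := (e.trans f).symm.isSimpleGroup
      rcases (alternatingGroup.normal (α := Fin 6)).eq_bot_or_eq_top with h | h
      · have := (Equiv.Perm.isThreeCycle_swap_mul_swap_same (a := (0 : Fin 6)) (b := 1) (c := 2)
          (by decide) (by decide) (by decide))
        exact (this.ne_one (Subgroup.mem_bot.1 (h ▸ this.mem_alternatingGroup))).elim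
      · have : Equiv.swap (0 : Fin 6) 1 ∈ alternatingGroup (Fin 6) := h ▸ Subgroup.mem_top _
        exact absurd (Equiv.Perm.mem_alternatingGroup.1 this) (by decide)
    · rw [c]; decide
    · rw [c] at hp ⊢
      refine le_trans ?_ (Nat.le_mul_of_pos_right _ (Nat.pos_of_mul_pos_left hp))
      exact le_trans (by norm_num) (Nat.pow_le_pow_right two_pos (Nat.pow_le_pow_left h4 2))
  · have hF' : Fintype.card F = 2 ^ 2 := hF
    have c := Nat.card_congr e.toEquiv
    have d : Nat.card G ∣ Nat.card (SU n F 2) := c ▸ Subgroup.card_quotient_dvd_card _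
    by_cases h4 : 4 ≤ n
    · have := H59.card_PSU hF' (n := n) (by omega)
      rw [← c] at this
      obtain rfl | ⟨j, rfl⟩ : n = 4 ∨ ∃ j, n = j + 5 := by
        by_cases h : n = 4
        exacts [.inl h, .inr ⟨n - 5, by omega⟩]
      · rw [show H59.ordGU 2 4 = 77760 by decide] at this
        norm_num at this
        omega
      · have h1 := ordGU_ge j
        have h2 : (j + 5).gcd (2 + 1) ≤ 3 := Nat.gcd_le_right _ (by norm_num)
        nlinarith
    refine absurd (d.trans ?_) hs
    by_cases h0 : n = 0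
    · subst h0
      have : Subsingleton (SU 0 F 2) := ⟨fun a b => Subtype.ext (Subtype.ext (by ext i; exact i.elim0))⟩
      rw [Nat.card_of_subsingleton (1 : SU 0 F 2)]
      decide
    refine (Dvd.intro_left _ (H59.card_SU hF' (n := n) (by omega))).trans ?_
    obtain rfl | rfl | rfl : n = 1 ∨ n = 2 ∨ n = 3 := by omega
    all_goals decide
  · have c := Nat.card_congr e.toEquiv
    have d := (c.dvd.trans ((Subgroup.card_quotient_dvd_card _).trans
      (Subgroup.card_subgroup_dvd_card _))).trans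
      (Cfsg.Agent.S0286.result (ZMod.card 3) (by decide) m).dvd
    obtain rfl | rfl | rfl | h3 : m = 0 ∨ m = 1 ∨ m = 2 ∨ 3 ≤ m := by omega
    · exact absurd (d.trans (by decide)) hs
    · exact absurd (d.trans (by decide)) hs
    · obtain ⟨f⟩ := Cfsg.Agent.S0301.result (F := ZMod 3) (by rw [ZMod.card]; decide)
      have h1 := Subgroup.card_eq_card_quotient_mul_card_subgroup
        (Subgroup.center (symplecticGroup (Fin 2) (ZMod 3)))
      rw [H54.card_sp, H54.card_center_sp_eq_gcd] at h1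
      simp only [Nat.card_zmod, ZMod.card, Fintype.card_fin, H54.spOrder] at h1
      have h2 : Nat.card (PSp 2 (ZMod 3)) * 2 = 51840 := by
        norm_num [Finset.prod_range_succ] at h1 ⊢
        exact h1.symm
      rw [c, Nat.card_congr f.toEquiv]
      omega
    · have h1 := Cfsg.Agent.S0292.result (ZMod.card 3) (by decide) m h3
      rw [← c] at h1
      obtain rfl | h4 : m = 3 ∨ 4 ≤ m := by omega
      · norm_num [Finset.prod_range_succ] at h1
        omega
      · have h2 : 3 ^ 4 ^ 2 ≤ 3 ^ m ^ 2 := Nat.pow_le_pow_right (by norm_num) (Nat.pow_le_pow_left h4 2)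
        have h5 := Nat.le_mul_of_pos_right (3 ^ m ^ 2) (Nat.pos_of_mul_pos_left (h1 ▸ by omega :
          0 < 3 ^ m ^ 2 * ∏ i ∈ Finset.range m, (3 ^ (2 * (i + 1)) - 1)))
        omega
  · rw [h.2]; norm_num
  · rw [h.2]; norm_num

theorem jobTVU4 : JobTVU4.{u} := fun k _ _ G _ K _ hG h h2 hK hs hn hS hL => by
  obtain ⟨u, φ, t0, hu, hφ⟩ := h.ne
  let t : G := ⟨_, t0.mem⟩
  have t1 : t ≠ 1 := fun e => ((H20.LD.tv_eq_one_iff t0.1).1 (congrArg Subtype.val e)).elim hu hφ
  have t2 : orderOf t = 2 :=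
    orderOf_eq_prime (Subtype.ext (by simpa [sq] using LD40.tv_mul_self h2 t0.1)) t1
  have key : ∀ d ∈ conjugatesOf t, ∃ w ψ, TV G w ψ ∧ w ≠ 0 ∧ ψ ≠ 0 ∧
      ∀ v, d.1.val *ᵥ v = v + (ψ ⬝ᵥ v) • w := fun d hd => by
    obtain ⟨g, rfl⟩ := isConj_iff.1 hd
    exact ⟨_, _, t0.conj g.2, mulVec_ne _ hu, vecMul_ne _ hφ, fun v => by
      rw [← H20.LD.tv_mulVec, ← conj_tv_val g.1 t0.1]; rfl⟩
  refine card_ge_of_three (by
    by_contra hc
    push Not at hc
    exact hn ⟨⟨hc⟩⟩) (D := conjugatesOf t) ⟨⟨fun d hd => ?_, fun d hd e he => ?_⟩,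
      ⟨t, mem_conjugatesOf_self, rfl⟩, ?_⟩
  · obtain ⟨g, rfl⟩ := isConj_iff.1 hd
    rw [← t2]
    exact (MulAut.conj g).orderOf_eq t
  · obtain ⟨w, ψ, a1, a2, a3, a4⟩ := key d hd
    obtain ⟨z, χ, b1, b2, b3, b4⟩ := key e he
    rcases hK _ ((hL _ _ _ _ a1 b1).resolve_right fun c =>
      one_ne_zero (α := k) (by linear_combination c.1 - h2)) with c | c
    · have c1 : ψ ⬝ᵥ z = 0 := (mul_eq_zero.1 c).elim id fun c => hS _ _ _ _ b1 a1 b3 a2 c
      have c2 : χ ⬝ᵥ w = 0 := hS _ _ _ _ a1 b1 a3 b2 c1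
      refine Or.inl (Subtype.ext (Units.ext (ext_iff_mulVec.2 fun v => ?_)))
      simp only [sq, Subgroup.coe_mul, Units.val_mul, ← mulVec_mulVec, a4, b4, dotProduct_add,
        dotProduct_smul, a1.1, b1.1, c1, c2, smul_eq_mul, OneMemClass.coe_one, Units.val_one,
        one_mulVec]
      match_scalars
      · ring
      · linear_combination (χ ⬝ᵥ v) * h2
      · linear_combination (ψ ⬝ᵥ v) * h2
    · refine Or.inr (Subtype.ext (Units.ext (ext_iff_mulVec.2 fun v => ?_)))
      simp only [pow_succ, pow_zero, one_mul, Subgroup.coe_mul, Units.val_mul, ← mulVec_mulVec, a4, b4,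
        dotProduct_add, dotProduct_smul, a1.1, b1.1, smul_eq_mul, OneMemClass.coe_one, Units.val_one,
        one_mulVec]
      match_scalars
      · ring
      · grind
      · grind
  · have := (Subgroup.normalClosure_normal (s := {t})).eq_bot_or_eq_top.resolve_left fun e =>
      t1 (Subgroup.mem_bot.1 (e ▸ Subgroup.subset_normalClosure rfl))
    rw [← this, Subgroup.normalClosure]
    congr 1
    simp [Group.conjugatesOfSet]

end H57.LD4F
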