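import Cfsg.Agent.Base
import Cfsg.Agent.H57.Descent

/-!
# Lang's theorem for `GL_n` over an algebraically closed field.
-/

set_option autoImplicit false
set_option linter.unusedSectionVars false

namespace H57

open Polynomial

variable {K : Type*} [Field K] [IsAlgClosed K] {σ : K →+* K} {q : ℕ}

/-- The additive polynomials solving the fixed point equations. -/
noncomputable def langPoly (q : ℕ) (a : ℕ → K) : ℕ → K[X]
  | 0 => C (a 0) * X ^ q
  | i + 1 => langPoly q a i ^ q + C (a (i + 1)) * X ^ q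

lemma natDegree_langPoly (hq : 2 ≤ q) {a : ℕ → K} (ha : a 0 ≠ 0) (i : ℕ) :
    (langPoly q a i).natDegree = q ^ (i + 1) := by
  induction i with
  | zero => simp [langPoly, natDegree_C_mul_X_pow _ _ ha]
  | succ i ih =>
    rw [langPoly, natDegree_add_eq_left_of_natDegree_lt, natDegree_pow, ih, ← pow_succ']
    rw [natDegree_pow, ih]
    refine lt_of_le_of_lt (natDegree_C_mul_X_pow_le _ _) ?_
    have : 1 < q ^ (i + 1) := Nat.one_lt_pow (by omega) (by omega)
    nlinarith

lemma X_pow_dvd_langPoly (hq : 2 ≤ q) (a : ℕ → K) (i : ℕ) : X ^ 2 ∣ langPoly q a i := by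
  induction i with
  | zero => exact Dvd.dvd.mul_left (pow_dvd_pow _ hq) _
  | succ i ih =>
    exact dvd_add (ih.trans (dvd_pow_self _ (by omega))) (Dvd.dvd.mul_left (pow_dvd_pow _ hq) _)

lemma exists_langPoly_eval_eq (hq : 2 ≤ q) {a : ℕ → K} (ha : a 0 ≠ 0) (i : ℕ) :
    ∃ z : K, z ≠ 0 ∧ (langPoly q a i).eval z = z := by
  obtain ⟨R, hR⟩ := X_pow_dvd_langPoly hq a i
  have hR0 : R ≠ 0 := by
    rintro rfl
    have := natDegree_langPoly hq ha i
    rw [hR, mul_zero, natDegree_zero] at this
    exact absurd this.symm (by positivity)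
  have hd : 0 < (X * R).degree := by
    rw [← natDegree_pos_iff_degree_pos, natDegree_X_mul hR0]; omega
  obtain ⟨z, hz⟩ := IsAlgClosed.exists_root (X * R - C 1) (by rw [degree_sub_C hd]; exact hd.ne')
  simp only [IsRoot.def, eval_sub, eval_mul, eval_X, eval_C, sub_eq_zero] at hz
  refine ⟨z, left_ne_zero_of_mul_eq_one hz, ?_⟩
  rw [hR, eval_mul, eval_pow, eval_X, sq, mul_assoc, hz, mul_one]

lemma pow_surjective_of_isAlgClosed (hq : 2 ≤ q) (hσ : ∀ a, σ a = a ^ q) : Function.Surjective σ :=
  fun a => by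
    obtain ⟨b, hb⟩ := IsAlgClosed.exists_pow_nat_eq a (show 0 < q by omega)
    exact ⟨b, by rw [hσ, hb]⟩

variable {V : Type*} [AddCommGroup V] [Module K V] [FiniteDimensional K V]

/-- An injective `q`-semilinear map has a non-zero fixed vector. -/
theorem exists_fixed_of_semilinear (hq : 2 ≤ q) (hσ : ∀ a, σ a = a ^ q) [Nontrivial V]
    (T : V →ₛₗ[σ] V) (hT : Function.Injective T) : ∃ w, w ≠ 0 ∧ T w = w := by
  classical
  obtain ⟨v, hv⟩ := exists_ne (0 : V)
  have hex : ∃ r, ∃ a : ℕ → K, ∑ i ∈ Finset.range r, a i • T^[i] v = T^[r] v := by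
    obtain ⟨r, hr⟩ := monotone_stabilizes_iff_noetherian.2 (inferInstance : IsNoetherian K V)
      ⟨fun r => Submodule.span K ((fun i => T^[i] v) '' (Finset.range r : Set ℕ)),
        fun r s h => Submodule.span_mono (Set.image_mono (by simpa using h))⟩
    refine ⟨r, (Submodule.mem_span_image_finset_iff_exists_fun' K).1 ?_⟩
    have : Submodule.span K ((fun i => T^[i] v) '' (Finset.range r : Set ℕ)) =
      Submodule.span K ((fun i => T^[i] v) '' (Finset.range (r + 1) : Set ℕ)) :=
      hr (r + 1) (Nat.le_succ r)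
    rw [this]
    exact Submodule.subset_span ⟨r, by simp, rfl⟩
  obtain ⟨a, ha⟩ := Nat.find_spec hex
  obtain ⟨s, hs⟩ : ∃ s, Nat.find hex = s + 1 := by
    refine Nat.exists_eq_succ_of_ne_zero fun h => hv ?_
    rw [h] at ha
    simpa using ha.symm
  have hmin := Nat.find_min hex (show s < Nat.find hex by omega)
  rw [hs] at ha
  have ha0 : a 0 ≠ 0 := by
    intro h0
    choose τ hτ using pow_surjective_of_isAlgClosed hq hσ
    refine hmin ⟨fun i => τ (a (i + 1)), hT ?_⟩
    rw [← Function.iterate_succ_apply' T s, ← ha, Finset.sum_range_succ', h0, zero_smul, add_zero,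
      map_sum]
    refine Finset.sum_congr rfl fun i _ => ?_
    rw [LinearMap.map_smulₛₗ, hτ, Function.iterate_succ_apply']
  obtain ⟨z, hz0, hz⟩ := exists_langPoly_eval_eq hq ha0 s
  refine ⟨∑ i ∈ Finset.range (s + 1), (langPoly q a i).eval z • T^[i] v, fun h => ?_, ?_⟩
  · refine hmin ⟨fun i => -z⁻¹ * (langPoly q a i).eval z, ?_⟩
    rw [Finset.sum_range_succ, hz, add_eq_zero_iff_eq_neg] at h
    simp only [mul_smul]
    rw [← Finset.smul_sum, h, smul_neg, neg_smul, neg_neg, inv_smul_smul₀ hz0]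
  · rw [map_sum, Finset.sum_range_succ, Finset.sum_range_succ', hz]
    simp only [LinearMap.map_smulₛₗ, hσ, ← Function.iterate_succ_apply' T]
    rw [← ha, Finset.sum_range_succ', smul_add, ← add_assoc, Finset.smul_sum,
      ← Finset.sum_add_distrib]
    simp only [langPoly, eval_add, eval_pow, eval_mul, eval_C, eval_X, add_smul, smul_smul,
      mul_comm (z ^ q)]

/-- The fixed vectors of an injective `q`-semilinear map span. -/
theorem span_fixed_eq_top_of_isAlgClosed (hq : 2 ≤ q) (hσ : ∀ a, σ a = a ^ q)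
    (T : V →ₛₗ[σ] V) (hT : Function.Injective T) : Submodule.span K {v | T v = v} = ⊤ := by
  set W := Submodule.span K {v | T v = v} with hW
  have hsurj := pow_surjective_of_isAlgClosed hq hσ
  have h1 : ∀ w ∈ W, T w ∈ W := fun w hw => by
    induction hw using Submodule.span_induction with
    | mem x hx => exact Submodule.subset_span (by rw [hx]; exact hx)
    | zero => simp
    | add x y _ _ hx hy => rw [map_add]; exact W.add_mem hx hy
    | smul c x _ hx => rw [LinearMap.map_smulₛₗ]; exact W.smul_mem _ hx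
  have h2 : ∀ w ∈ W, ∃ w' ∈ W, T w' = w := fun w hw => by
    induction hw using Submodule.span_induction with
    | mem x hx => exact ⟨x, Submodule.subset_span hx, hx⟩
    | zero => exact ⟨0, W.zero_mem, map_zero _⟩
    | add x y _ _ hx hy =>
      obtain ⟨x', hx', rfl⟩ := hx
      obtain ⟨y', hy', rfl⟩ := hy
      exact ⟨x' + y', W.add_mem hx' hy', map_add _ _ _⟩
    | smul c x _ hx =>
      obtain ⟨x', hx', rfl⟩ := hx
      obtain ⟨c', rfl⟩ := hsurj c
      exact ⟨c' • x', W.smul_mem _ hx', LinearMap.map_smulₛₗ _ _ _⟩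
  have h3 : ∀ w ∈ W, ∀ c : K, ∃ w' ∈ W, T w' - w' = c • w := fun w hw => by
    induction hw using Submodule.span_induction with
    | mem x hx =>
      intro c
      obtain ⟨t, ht⟩ := IsAlgClosed.exists_root (X ^ q - (X + C c) : K[X]) (by
        rw [degree_sub_eq_left_of_degree_lt, degree_X_pow]
        · exact_mod_cast (show q ≠ 0 by omega)
        · rw [degree_X_pow, degree_X_add_C]; exact_mod_cast hq)
      refine ⟨t • x, W.smul_mem _ (Submodule.subset_span hx), ?_⟩
      simp only [IsRoot.def, eval_sub, eval_pow, eval_X, eval_add, eval_C, sub_eq_zero] at ht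
      rw [LinearMap.map_smulₛₗ, hσ, ht, (show T x = x from hx), add_smul, add_sub_cancel_left]
    | zero => exact fun c => ⟨0, W.zero_mem, by simp⟩
    | add x y _ _ hx hy =>
      intro c
      obtain ⟨x', hx', h⟩ := hx c
      obtain ⟨y', hy', h'⟩ := hy c
      exact ⟨x' + y', W.add_mem hx' hy', by rw [map_add, smul_add, ← h, ← h']; abel⟩
    | smul d x _ hx => intro c; rw [smul_smul]; exact hx _
  by_contra hne
  have : Nontrivial (V ⧸ W) := Submodule.Quotient.nontrivial_iff.2 hne
  obtain ⟨u, hu0, hu⟩ := exists_fixed_of_semilinear hq hσ (W.mapQ W T h1) (by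
    rw [injective_iff_map_eq_zero]
    intro x hx
    obtain ⟨x, rfl⟩ := W.mkQ_surjective x
    rw [Submodule.mkQ_apply, Submodule.mapQ_apply, Submodule.Quotient.mk_eq_zero] at hx
    obtain ⟨w', hw', h⟩ := h2 _ hx
    rw [Submodule.mkQ_apply, Submodule.Quotient.mk_eq_zero, ← hT h]
    exact hw')
  obtain ⟨u, rfl⟩ := W.mkQ_surjective u
  rw [Submodule.mkQ_apply, Submodule.mapQ_apply, Submodule.Quotient.eq] at hu
  obtain ⟨w', hw', h⟩ := h3 _ hu 1
  apply hu0
  rw [Submodule.mkQ_apply, Submodule.Quotient.mk_eq_zero]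
  have : u - w' ∈ W := Submodule.subset_span (by
    rw [one_smul] at h
    change T (u - w') = u - w'
    rw [map_sub, sub_eq_sub_iff_sub_eq_sub, h])
  simpa using W.add_mem this hw'

open Matrix in
/-- **Lang's theorem** for `GL_n`. -/
theorem lang_gl {ι : Type*} [Fintype ι] [DecidableEq ι] (hq : 2 ≤ q) (hσ : ∀ a, σ a = a ^ q)
    (g : GL ι K) : ∃ x : GL ι K, g = x * (Matrix.GeneralLinearGroup.map σ x)⁻¹ := by
  let T : (ι → K) →ₛₗ[σ] (ι → K) :=
    { toFun := fun v => (g : Matrix ι ι K) *ᵥ (σ ∘ v)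
      map_add' := fun v w => by
        have : σ ∘ (v + w) = σ ∘ v + σ ∘ w := by ext; simp
        rw [this, mulVec_add]
      map_smul' := fun c v => by
        have : σ ∘ (c • v) = σ c • (σ ∘ v) := by ext; simp
        rw [this, mulVec_smul] }
  have hT : ∀ v, T v = (g : Matrix ι ι K) *ᵥ (σ ∘ v) := fun _ => rfl
  obtain ⟨h, hh⟩ := exists_gl_cols_mem (span_fixed_eq_top_of_isAlgClosed hq hσ T (by
    intro v w h
    have := (Matrix.mulVec_injective_iff_isUnit.2 g.isUnit) h
    exact funext fun i => σ.injective (congrFun this i)))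
  refine ⟨h, eq_mul_inv_of_mul_eq ?_⟩
  ext i j
  have := congrFun (hh j) i
  simpa [hT, mulVec, dotProduct, Pi.single_apply, mul_apply] using this

end H57
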