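import Cfsg.Agent.H57.HyperGen
import Cfsg.Agent.H60.Full
import Cfsg.Agent.H56.OmegaFin
import Cfsg.Agent.H56.Eichler
import Cfsg.Agent.H70.UG1
import Cfsg.Agent.H58.WittIndex

/-! The groups `Ω(Q)` are generated by two elements. -/

set_option autoImplicit false
set_option linter.unusedSectionVars false

namespace H57

open QuadraticMap H56 H60 Module

variable {F V : Type*} [Field F] [AddCommGroup V] [Module F V] {Q : QuadraticForm F V}

/-- `k` orthogonal hyperbolic pairs, indexed by the natural numbers. -/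
structure Fr (Q : QuadraticForm F V) (k : ℕ) (e f : ℕ → V) : Prop where
  qe : ∀ i, Q (e i) = 0
  qf : ∀ i, Q (f i) = 0
  ee : ∀ i j, polar Q (e i) (e j) = 0
  ff : ∀ i j, polar Q (f i) (f j) = 0
  ef : ∀ i j, polar Q (e i) (f j) = if i = j ∧ i < k then 1 else 0
  ze : ∀ i, k ≤ i → e i = 0 ∧ f i = 0

/-- The vectors orthogonal to a frame. -/
def Pp (Q : QuadraticForm F V) (e f : ℕ → V) (z : V) : Prop :=
  ∀ i, polar Q (e i) z = 0 ∧ polar Q (f i) z = 0

section AS

variable {M : Subgroup (O Q)} {u u' w w' : V}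

theorem AS_key (hu' : Q u' = 0) (h1 : w ∈ AS M u) (h2 : w' ∈ AS M u') (a : polar Q u' u = 0)
    (b : polar Q w' u = 0) (c : polar Q u' w = 0) (d : polar Q w' w ≠ 0) : u' ∈ AS M u := by
  have := apply_mem_AS_of_fix (eich_mem_of_AS h2) (eich_apply_of_orth_orth a b) h1
  rw [eich_apply_of_orth hu' h2.1 c, add_mem_cancel_left h1] at this
  exact (Submodule.smul_mem_iff _ d).1 this

theorem AS_key2 (hu' : Q u' = 0) (h1 : w ∈ AS M u) (h2 : w' ∈ AS M u') (a : polar Q u' u = 0)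
    (b : polar Q w' u = 0) (c : polar Q u' w = 1) (d : polar Q w' w = 0) :
    w' + Q w' • u' ∈ AS M u := by
  have := apply_mem_AS_of_fix (eich_mem_of_AS h2) (eich_apply_of_orth_orth a b) h1
  rw [eich_apply hu' h2.1, c, d] at this
  convert sub_mem h1 this using 1
  module

theorem mem_AS_of_scale [Finite F] (hu : Q u = 0) (huw : polar Q u w = 0) (h : eich Q u w ∈ M)
    {g : O Q} (hg : g ∈ M) {s : F} (h1 : g u = s • u) (h2 : g w = w)
    (hs : Subring.closure {s} = ⊤) : w ∈ AS M u := by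
  refine ⟨huw, fun t => ?_⟩
  obtain ⟨d, hd⟩ := exists_isDeg hs
  have hE : IsAdd fun t : F => eich Q u (t • w) := fun a b => by
    simp only [add_smul]; exact eich_add hu (by simp [huw]) (by simp [huw])
  refine IsAdd.mem_of_closure hE ?_ (hd.top t)
  rintro _ ⟨i, -, rfl⟩
  have := conj_pow_param (E := fun t : F => eich Q u (t • w)) (g := g) (fun a => show _ = eich Q u ((s * a) • w) by
    rw [conj_eich, h1, map_smul, h2, eich_smul_left _ _ _ hu (by simp [huw]), smul_smul]) i 1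
  simp only [mul_one, one_smul] at this
  exact this ▸ mul_mem (mul_mem (pow_mem hg i) h) (inv_mem (pow_mem hg i))

end AS

theorem pow_apply_of_smul {g : O Q} {x : V} {a : F} (h : g x = a • x) (n : ℕ) :
    (g ^ n) x = a ^ n • x := by
  induction n with
  | zero => simp
  | succ n ih => rw [pow_succ', O.mul_apply, ih, map_smul, h, smul_smul, pow_succ]

namespace Fr

variable {k : ℕ} {e f : ℕ → V} (h : Fr Q k e f)
include h

theorem fe (i j : ℕ) : polar Q (f i) (e j) = if j = i ∧ j < k then 1 else 0 := by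
  rw [polar_comm, h.ef]

theorem hyp {i : ℕ} (hi : i < k) : IsHyp Q (e i) (f i) := ⟨h.qe i, h.qf i, by simp [h.ef, hi]⟩

theorem ef' {i j : ℕ} (hi : i ≠ j) : polar Q (e i) (f j) = 0 := by simp [h.ef, hi]

theorem fe' {i j : ℕ} (hi : i ≠ j) : polar Q (f i) (e j) = 0 := by simp [h.fe, hi.symm]

theorem dec (x : V) : Pp Q e f (x - ∑ i ∈ Finset.range k,
    (polar Q (f i) x • e i + polar Q (e i) x • f i)) := fun j => by
  by_cases hj : j < k
  · simp [polar_sub_right, H58.polar_sum_right, h.ee, h.ff, h.ef, h.fe, hj, ite_and]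
  · simp [(h.ze j (by omega)).1, (h.ze j (by omega)).2]

theorem ext {g : O Q} (h1 : ∀ i < k, g (e i) = e i ∧ g (f i) = f i)
    (h2 : ∀ z, Pp Q e f z → g z = z) : g = 1 := O.ext fun x => by
  have := h2 _ (h.dec x)
  rw [map_sub, map_sum, Finset.sum_congr rfl fun i hi => by
    rw [map_add, map_smul, map_smul, (h1 i (Finset.mem_range.1 hi)).1,
      (h1 i (Finset.mem_range.1 hi)).2]] at this
  exact sub_left_injective this

omit h in
theorem _root_.H57.Pp.refl {v z : V} (hv : Pp Q e f v) (hz : Pp Q e f z) :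
    Pp Q e f (refl Q v z) := fun i => by
  simp [refl_apply, polar_sub_right, hv i, hz i]

/-- The action of two opposite root elements. -/
theorem roots {i j : ℕ} (hi : i < k) (hj : j < k) (hij : i ≠ j) :
    ∃ A ∈ EG Q, ∃ B ∈ EG Q, (A (e i) = e i ∧ A (e j) = e j - e i ∧ A (f i) = f i + f j ∧
      A (f j) = f j) ∧ (B (e i) = e i + e j ∧ B (e j) = e j ∧ B (f i) = f i ∧ B (f j) = f j - f i) ∧
      (∀ l, l ≠ i → l ≠ j → (A (e l) = e l ∧ A (f l) = f l) ∧ B (e l) = e l ∧ B (f l) = f l) ∧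
      ∀ z, Pp Q e f z → A z = z ∧ B z = z := by
  have a : polar Q (e i) (-f j) = 0 := by simp [h.ef' hij]
  have b := h.ef' hij.symm
  refine ⟨_, eich_mem_EG (e i) (-f j), _, eich_mem_EG (e j) (f i), ?_, ?_, fun l h1 h2 => ?_,
    fun z hz => ⟨eich_apply_of_orth_orth (hz i).1 (by simp [(hz j).2]),
      eich_apply_of_orth_orth (hz j).1 (hz i).2⟩⟩
  · simp [eich_apply (h.qe i) a, h.ee, h.ff, h.ef, h.fe, hi, hj, hij, h.qf, sub_eq_add_neg]
  · simp [eich_apply (h.qe j) b, h.ee, h.ff, h.ef, h.fe, hi, hj, hij.symm, h.qf]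
  · simp [eich_apply (h.qe i) a, eich_apply (h.qe j) b, h.ee, h.ff, h.ef, h.fe, h1, h2, h1.symm,
      h2.symm]

theorem swap {i j : ℕ} (hi : i < k) (hj : j < k) (hij : i ≠ j) :
    ∃ n ∈ EG Q, n (e i) = e j ∧ n (e j) = -e i ∧ n (f i) = f j ∧ n (f j) = -f i ∧
      (∀ l, l ≠ i → l ≠ j → n (e l) = e l ∧ n (f l) = f l) ∧ ∀ z, Pp Q e f z → n z = z := by
  obtain ⟨A, hA, B, hB, a, b, c, d⟩ := h.roots hi hj hij
  exact ⟨A * B * A, mul_mem (mul_mem hA hB) hA, by simp [a, b], by simp [a, b], by simp [a, b],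
    by simp [a, b], fun l h1 h2 => by simp [c l h1 h2], fun z hz => by simp [d z hz]⟩

variable [FiniteDimensional F V] [Finite F] (hQ : Q.polarBilin.Nondegenerate)
  (h5 : 5 ≤ finrank F V) {v z : V} (hv : Pp Q e f v)
include hQ h5 hv

theorem exists_cyc (hQv : Q v ≠ 0) (j : ℕ) (hj : j < k) : ∃ c ∈ commutator (O Q), ∃ l : F, l ≠ 0 ∧
    (∀ i < j, c (e i) = e (i + 1) ∧ c (f i) = f (i + 1)) ∧ c (e j) = l • f 0 ∧
    (∀ i, j < i → c (e i) = e i ∧ c (f i) = f i) ∧ ∀ z, Pp Q e f z → c z = refl Q v z := by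
  induction j with
  | zero =>
    have hq := (h.hyp hj).Q_add_smul (Q v)
    refine ⟨_, refl_mul_refl_mem_commutator hQ h5 (a := e 0 + Q v • f 0) (b := v) one_ne_zero
      (by rw [hq]; ring), -Q v, neg_ne_zero.2 hQv, fun i hi => by omega, ?_, fun i hi => ?_,
      fun z hz => ?_⟩
    · rw [O.mul_apply, refl_apply_of_orth (x := e 0) (by rw [polar_comm, (hv 0).1]), refl_apply, hq]
      simp [h.ee, h.fe, hj, hQv]
    · rw [O.mul_apply, O.mul_apply, refl_apply_of_orth (x := e i) (by rw [polar_comm, (hv i).1]),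
        refl_apply_of_orth (x := f i) (by rw [polar_comm, (hv i).2]), refl_apply_of_orth,
        refl_apply_of_orth] <;> simp [h.ee, h.ff, h.ef' hi.ne, h.fe' hi.ne]
    · rw [O.mul_apply, refl_apply_of_orth]; simp [hv.refl hz 0]
  | succ j ih =>
    obtain ⟨c, hc, l, hl, a1, a2, a3, a4⟩ := ih (by omega)
    obtain ⟨n, hn, b1, b2, b3, -, b5, b6⟩ := h.swap (i := j) (by omega) hj (by omega)
    refine ⟨c * n, mul_mem hc (EOin_le_commutator hQ h5 _ hn), -l, neg_ne_zero.2 hl, fun i hi => ?_,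
      by simp [b2, a2], fun i hi => by simp [b5 i (by omega) (by omega), a3 i (by omega)],
      fun z hz => by simp [b6 z hz, a4 z hz]⟩
    rcases (Nat.lt_succ_iff.1 hi).eq_or_lt with rfl | hi
    · simp [b1, b3, a3 (i + 1) (by omega)]
    · simp [b5 i (by omega) (by omega), a1 i hi]

/-- The main step. -/
theorem gen (hk : 2 ≤ k) (hQv : Q v ≠ 0) (hz : Pp Q e f z) (hvz : polar Q v z ≠ 0)
    (sp : ∀ x, Pp Q e f x → ∃ a b : F, x = a • z + b • v) {y : O Q} (hy : y ∈ EG Q) {N d : ℕ}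
    (yN : y ^ N = 1) (hN : (Nat.card F).Coprime N) (y0 : y (e 0) = e 0)
    (yz : ∀ x, Pp Q e f x → y x = x) {s : F} (ys : (y ^ d) (e 1) = s • e 1)
    (hs : Subring.closure {s} = ⊤)
    (H : (Q z ≠ 0 ∧ polar Q (refl Q v z) z ≠ 0) ∨ (3 ≤ k ∧ ∀ A : Submodule F V, (∀ w ∈ A, y w ∈ A) →
      (e 1 ∈ A ↔ e 2 ∈ A) ∧ (f 1 ∈ A ↔ f 2 ∈ A))) : Gen (commutator (O Q)) 2 := by
  obtain ⟨k, rfl⟩ : ∃ j, k = j + 1 := ⟨k - 1, by omega⟩
  obtain ⟨c, hc, l, hl, c1, c2, -, c4⟩ := h.exists_cyc hQ h5 hv hQv k (by omega)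
  have m := mul_mem (eich_mem_commutator hQ h5 (e 0) z) (EOin_le_commutator hQ h5 _ hy)
  refine gen_two (a := ⟨c, hc⟩) (b := ⟨_, m⟩) (H70.closure_eq_top_of_map (Subgroup.subtype _)
    Subtype.val_injective _ fun M hM => ?_)
  rw [Subgroup.range_subtype]
  have mc : c ∈ M := hM ⟨c, hc⟩ (by simp)
  obtain ⟨mx, my⟩ := mem_of_mul_mem (x := eich Q (e 0) z) (y := y) (a := Nat.card F) (by
    rw [commute_iff_eq, eq_comm, ← mul_inv_eq_iff_eq_mul, conj_eich, y0, yz z hz]) (by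
      have : ∀ n : ℕ, eich Q (e 0) z ^ n = eich Q (e 0) ((n : F) • z) := fun n => by
        induction n with
        | zero => simp
        | succ n ih =>
          rw [pow_succ, ih, ← eich_add (h.qe 0) (by simp [(hz 0).1]) (hz 0).1]
          simp [add_smul]
      have _ := Fintype.ofFinite F
      rw [this, Nat.card_eq_fintype_card, FiniteField.cast_card_eq_zero, zero_smul, eich_zero])
    yN hN (hM ⟨_, m⟩ (by simp))
  have hr := hv.refl hz
  have yz' : ∀ x, Pp Q e f x → (y ^ d) x = x := fun x hx => by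
    simpa using pow_apply_of_smul (g := y) (x := x) (a := (1 : F)) (by simpa using yz x hx) d
  have h0 : z ∈ AS M (e 0) := mem_AS_of_scale (h.qe 0) (hz 0).1 mx
    (mul_mem (mul_mem (inv_mem mc) (pow_mem my d)) mc) (by
      rw [O.mul_apply, O.mul_apply, (c1 0 (by omega)).1, ys, map_smul, ← (c1 0 (by omega)).1,
        O.inv_apply_apply]) (by
      rw [O.mul_apply, O.mul_apply, c4 z hz, yz' _ hr, ← c4 z hz, O.inv_apply_apply]) hs
  have ind : ∀ P : ℕ → V → Prop, (∀ n u, P n (l • u) → P n u) → (∀ n u, P n u → P (n + 1) (c u)) →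
      P 0 (e 0) → ∀ i ≤ k, P i (e i) ∧ P (k + 1 + i) (f i) := fun P p1 p2 p3 => by
    have a : ∀ i ≤ k, P i (e i) := fun i => by
      induction i with
      | zero => exact fun _ => p3
      | succ i ih => exact fun hi => (c1 i hi).1 ▸ p2 _ _ (ih (by omega))
    refine fun i hi => ⟨a i hi, ?_⟩
    induction i with
    | zero => exact p1 _ _ (c2 ▸ p2 _ _ (a k le_rfl))
    | succ i ih => exact (c1 i hi).2 ▸ p2 _ _ (ih (by omega))
  let r := refl Q v z
  have i1 := ind (fun n u => (Even n → z ∈ AS M u) ∧ (¬ Even n → r ∈ AS M u))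
    (fun n u => by rw [AS_smul M hl]; exact id) (fun n u p => ⟨fun hn => by
      simpa [c4 _ hr, r] using apply_mem_AS mc (p.2 (Nat.even_add_one.1 hn)), fun hn => by
      simpa [c4 _ hz] using apply_mem_AS mc (p.1 (by simpa [Nat.even_add_one] using hn))⟩)
    ⟨fun _ => h0, fun hn => (hn (by simp)).elim⟩
  have pe : ∀ {x}, Pp Q e f x → ∀ i, polar Q x (e i) = 0 := fun hx i => by rw [polar_comm, (hx i).1]
  have pf : ∀ {x}, Pp Q e f x → ∀ i, polar Q x (f i) = 0 := fun hx i => by rw [polar_comm, (hx i).2]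
  have ke : ∀ i {w w'}, Pp Q e f w → Pp Q e f w' → w ∈ AS M (e 0) → w' ∈ AS M (e i) →
      polar Q w' w ≠ 0 → e i ∈ AS M (e 0) := fun i _ _ a b c d =>
    AS_key (h.qe i) c d (h.ee _ _) (pe b _) (a i).1
  have kf : ∀ i {w w'}, i ≠ 0 → Pp Q e f w → Pp Q e f w' → w ∈ AS M (e 0) → w' ∈ AS M (f i) →
      polar Q w' w ≠ 0 → f i ∈ AS M (e 0) := fun i _ _ hi a b c d =>
    AS_key (h.qf i) c d (h.fe' hi) (pe b _) (a i).2
  have r1 := (i1 1 (by omega)).1.2 (by simp)
  have main : e 1 ∈ AS M (e 0) ∧ f 1 ∈ AS M (e 0) := by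
    rcases H with ⟨q1, q2⟩ | ⟨h3, H⟩
    · have a := ke 1 hz hr h0 r1 q2
      refine ⟨a, ?_⟩
      by_cases hn : Even (k + 1 + 1)
      · have := AS_key2 (h.qf 1) a ((i1 1 (by omega)).2.1 hn) (h.fe' one_ne_zero) (pe hz _)
          (h.hyp (by omega)).fe (pe hz _)
        rw [add_mem_cancel_left h0] at this
        exact (Submodule.smul_mem_iff _ q1).1 this
      · exact kf 1 one_ne_zero hz hr h0 ((i1 1 (by omega)).2.2 hn) q2
    obtain ⟨a, b⟩ := H (AS M (e 0)) fun w => apply_mem_AS_of_fix my y0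
    by_cases q : polar Q z z = 0
    · have q2 : polar Q r z ≠ 0 := by simp [r, refl_apply, polar_sub_left, q, hQv, hvz]
      refine ⟨ke 1 hz hr h0 r1 q2, ?_⟩
      by_cases hn : Even (k + 1 + 1)
      · exact b.2 (kf 2 two_ne_zero hz hr h0 ((i1 2 (by omega)).2.2
          (by simpa [← add_assoc, Nat.even_add_one (n := k + 1 + 1)] using
            Nat.even_add_one.not.2 (not_not.2 hn))) q2)
      · exact kf 1 one_ne_zero hz hr h0 ((i1 1 (by omega)).2.2 hn) q2
    refine ⟨a.2 (ke 2 hz hz h0 ((i1 2 (by omega)).1.1 (by simp)) q), ?_⟩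
    by_cases hn : Even (k + 1 + 1)
    · exact kf 1 one_ne_zero hz hz h0 ((i1 1 (by omega)).2.1 hn) q
    · exact b.2 (kf 2 two_ne_zero hz hz h0 ((i1 2 (by omega)).2.1 (Nat.even_add_one.2 hn)) q)
  have hr0 : r ∈ AS M (e 0) := by
    have := AS_key2 (h.qe 1) main.2 r1 (h.ee _ _) (pe hr _) (h.hyp (by omega)).ef (pf hr _)
    rwa [add_mem_cancel_right (Submodule.smul_mem _ _ main.1)] at this
  have hv0 : v ∈ AS M (e 0) := by
    have := sub_mem h0 hr0
    rw [show z - r = ((Q v)⁻¹ * polar Q v z) • v by simp [r, refl_apply]] at this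
    exact (Submodule.smul_mem_iff _ (mul_ne_zero (inv_ne_zero hQv) hvz)).1 this
  have hZ : ∀ x, Pp Q e f x → x ∈ AS M (e 0) := fun x hx => by
    obtain ⟨a, b, rfl⟩ := sp x hx
    exact add_mem (Submodule.smul_mem _ _ h0) (Submodule.smul_mem _ _ hv0)
  have i2 := ind (fun _ u => ∀ x, Pp Q e f x → x ∈ AS M u)
    (fun n u => by rw [AS_smul M hl]; exact id) (fun n u p x hx => by
      simpa [c4 _ (hv.refl hx)] using apply_mem_AS mc (p _ (hv.refl hx))) hZ
  have full : Full M (e 0) := full_of_ort_le fun x hx => by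
    rw [← sub_add_cancel x (∑ i ∈ Finset.range (k + 1),
      (polar Q (f i) x • e i + polar Q (e i) x • f i))]
    refine add_mem (hZ _ (h.dec x)) (sum_mem fun i hi => add_mem (Submodule.smul_mem _ _ ?_) ?_)
    · exact ke i hz hv h0 ((i2 i (by simpa [Nat.lt_succ_iff] using hi)).1 v hv) hvz
    by_cases i0 : i = 0
    · rw [i0, mem_ort.1 hx, zero_smul]; exact zero_mem _
    · exact Submodule.smul_mem _ _
        (kf i i0 hz hv h0 ((i2 i (by simpa [Nat.lt_succ_iff] using hi)).2 v hv) hvz)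
  have i3 := ind (fun _ u => Full M u) (fun n u p => by
    simpa [smul_smul, hl] using p.smul (inv_ne_zero hl)) (fun n u p => p.conj mc) full 0 (by omega)
  exact commutator_le_of_full₂ hQ h5 full i3.2 (h.qe 0) (h.qf 0) (by simp [h.ef])

theorem gen' (hk : 2 ≤ k) (hQv : Q v ≠ 0) (hz : Pp Q e f z) (hvz : polar Q v z ≠ 0)
    (sp : ∀ x, Pp Q e f x → ∃ a b : F, x = a • z + b • v)
    (H : (Q z ≠ 0 ∧ polar Q (refl Q v z) z ≠ 0) ∨ (3 ≤ k ∧ ((2 : F) ≠ 0 ∨ Nat.card F = 2))) :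
    Gen (commutator (O Q)) 2 := by
  obtain ⟨ζ, hζ⟩ := exists_isPrim F
  have h0 := mul_ne_zero hζ.1 hζ.1
  have hs : Subring.closure {ζ * ζ} = ⊤ := by simpa [pow_two] using hζ.closure_pow two_pos (by simp)
  have h2 : 1 < Nat.card F := Finite.one_lt_card
  have hq : (Nat.card F).Coprime (Nat.card F - 1) := by
    rw [show Nat.card F = (Nat.card F - 1) + 1 by omega]; simp
  have pw : ∀ {a : F}, a ≠ 0 → a ^ (Nat.card F - 1) = 1 := fun ha => by
    have := Fintype.ofFinite F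
    rw [Nat.card_eq_fintype_card]; exact FiniteField.pow_card_sub_one_eq_one _ ha
  have t : ∀ i < k, ∃ t ∈ EG Q, t (e i) = (ζ * ζ) • e i ∧ t (f i) = (ζ * ζ)⁻¹ • f i ∧
      (∀ l, l ≠ i → t (e l) = e l ∧ t (f l) = f l) ∧ ∀ z, Pp Q e f z → t z = z := fun i hi =>
    ⟨_, (h.hyp hi).tor_sq_mem_EG hQ (by omega) hζ.1, tor_apply_e (h.hyp hi) h0,
      tor_apply_f (h.hyp hi) h0, fun l hl => ⟨tor_apply_of_orth (h.ee _ _) (h.fe' hl.symm),
        tor_apply_of_orth (h.ef' hl.symm) (h.ff _ _)⟩, fun z hz => tor_apply_of_orth (hz i).1 (hz i).2⟩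
  have dg : ∀ {g : O Q}, (∀ i < k, (∃ a : F, a ≠ 0 ∧ g (e i) = a • e i) ∧
      ∃ a : F, a ≠ 0 ∧ g (f i) = a • f i) → (∀ z, Pp Q e f z → g z = z) →
      g ^ (Nat.card F - 1) = 1 := fun {g} a b => h.ext (fun i hi => by
    obtain ⟨⟨x, x1, x2⟩, y, y1, y2⟩ := a i hi
    rw [pow_apply_of_smul x2, pow_apply_of_smul y2, pw x1, pw y1, one_smul, one_smul]
    exact ⟨rfl, rfl⟩) fun z hz => by
      simpa using pow_apply_of_smul (g := g) (x := z) (a := (1 : F)) (by simpa using b z hz) _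
  rcases H with H | ⟨h3, H | H⟩
  · obtain ⟨y, hy, a, b, c, d⟩ := t 1 (by omega)
    refine h.gen hQ h5 hv hk hQv hz hvz sp hy (d := 1) (dg (fun i _ => ?_) d) hq (c 0 (by omega)).1 d
      (by simpa using a) hs (.inl H)
    by_cases hi : i = 1
    · exact hi ▸ ⟨⟨_, h0, a⟩, _, inv_ne_zero h0, b⟩
    · exact ⟨⟨1, one_ne_zero, by simp [c i hi]⟩, 1, one_ne_zero, by simp [c i hi]⟩
  · obtain ⟨y, hy, a, b, c, d⟩ := t 2 (by omega)
    obtain ⟨n, hn, b1, b2, b3, b4, b5, b6⟩ := h.swap (i := 1) (j := 2) (by omega) h3 (by omega)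
    have c1 := c 1 (by omega)
    refine h.gen hQ h5 hv hk hQv hz hvz sp (mul_mem hn hy) (d := 2) (N := 2 * (Nat.card F - 1))
      (s := -(ζ * ζ)) (by
        rw [pow_mul]
        refine dg (fun i _ => ?_) fun z hz => by simp [pow_two, d z hz, b6 z hz]
        by_cases hi : i = 1 ∨ i = 2
        · refine ⟨⟨_, neg_ne_zero.2 h0, ?_⟩, _, neg_ne_zero.2 (inv_ne_zero h0), ?_⟩ <;>
            rcases hi with rfl | rfl <;> simp [pow_two, a, b, c1, b1, b2, b3, b4]
        · push Not at hi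
          exact ⟨⟨1, one_ne_zero, by simp [pow_two, c i hi.2, b5 i hi.1 hi.2]⟩, 1, one_ne_zero, by
            simp [pow_two, c i hi.2, b5 i hi.1 hi.2]⟩) (Nat.Coprime.mul_right ?_ hq)
      (by simp [c 0 (by omega), b5 0 (by omega) (by omega)]) (fun z hz => by simp [d z hz, b6 z hz])
      (by simp [pow_two, a, c1, b1, b2]) ?_ (.inr ⟨h3, fun A hA => ⟨⟨fun p => ?_, fun p => ?_⟩,
        fun p => ?_, fun p => ?_⟩⟩)
    · have := Fintype.ofFinite F
      rw [Nat.coprime_two_right, Nat.card_eq_fintype_card]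
      exact H58.odd_card_of_two_ne_zero H
    · refine eq_top_iff.2 (hs.ge.trans (Subring.closure_le.2 (Set.singleton_subset_iff.2 ?_)))
      simpa using neg_mem (Subring.subset_closure (s := {-(ζ * ζ)}) rfl)
    all_goals have := hA _ p
    · simpa [c1, b1] using this
    · simpa [a, b2, A.smul_mem_iff h0] using this
    · simpa [c1, b3] using this
    · simpa [b, b4, A.smul_mem_iff (inv_ne_zero h0), -mul_inv_rev] using this
  obtain ⟨A, hA, B, hB, a, b, c, d⟩ := h.roots (i := 1) (j := 2) (by omega) h3 (by omega)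
  have h1 : (-1 : F) = 1 := by
    have := pw (neg_ne_zero.2 (one_ne_zero (α := F)))
    rwa [H, pow_one] at this
  have h4 : ∀ x : V, -x = x := fun x => by rw [← neg_one_smul F, h1, one_smul]
  refine h.gen hQ h5 hv hk hQv hz hvz sp (mul_mem hA hB) (d := 0) (N := 3) (s := 1)
    (h.ext (fun i _ => ?_) fun z hz => by simp [pow_three, d z hz]) (by rw [H]; norm_num)
    (by simp [c 0 (by omega) (by omega)]) (fun z hz => by simp [d z hz]) (by simp) ?_
    (.inr ⟨h3, fun W hW => ⟨⟨fun p => ?_, fun p => ?_⟩, fun p => ?_, fun p => ?_⟩⟩)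
  · by_cases hi : i = 1 ∨ i = 2
    · rcases hi with rfl | rfl <;> simp [pow_three, a, b, h4]
    · push Not at hi
      simp [pow_three, c i hi.1 hi.2]
  · have := pw hζ.1
    rw [H, pow_one] at this
    rwa [this, one_mul] at hs
  all_goals have := hW _ p
  · simpa [a, b] using this
  · simpa [a, b] using sub_mem p this
  · simpa [a, b] using sub_mem this p
  · simpa [a, b] using this

end Fr

theorem exists_fr {m : ℕ} {e f : Fin m → V} (h : H58.IsHypFrame Q e f) {k : ℕ} (hk : k ≤ m) :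
    ∃ e' f', Fr Q k e' f' ∧ ∀ z, Pp Q e' f' z ↔
      ∀ i : Fin m, i.1 < k → polar Q (e i) z = 0 ∧ polar Q (f i) z = 0 := by
  refine ⟨fun i => if hi : i < k then e ⟨i, by omega⟩ else 0,
    fun i => if hi : i < k then f ⟨i, by omega⟩ else 0, ⟨fun i => ?_, fun i => ?_, fun i j => ?_,
      fun i j => ?_, fun i j => ?_, fun i hi => by simp [hi.not_gt]⟩, fun z => ⟨fun p i hi => by
        simpa [hi] using p i, fun p i => ?_⟩⟩
  · split_ifs <;> simp [h.qe]
  · split_ifs <;> simp [h.qf]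
  · split_ifs <;> simp [h.ee]
  · split_ifs <;> simp [h.ff]
  · by_cases hi : i < k <;> by_cases hj : j < k <;> simp [hi, hj, h.ef]
    omega
  · by_cases hi : i < k
    · simpa [hi] using p ⟨i, by omega⟩ hi
    · simp [hi]

open H58

variable [Finite F]

theorem gen_omega_odd (h2 : (2 : F) ≠ 0) {m : ℕ} (hm : 2 ≤ m) :
    Gen (Cfsg.Omega F (Cfsg.quadFormOdd m F)) 2 := by
  let ι : (Fin m ⊕ Fin m → F) →ₗ[F] (Unit ⊕ (Fin m ⊕ Fin m) → F) :=
    { toFun := fun x => Sum.elim 0 x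
      map_add' := fun x y => by ext (j | j) <;> simp
      map_smul' := fun c x => by ext (j | j) <;> simp }
  have hι : ∀ x v, polar (qOdd m F) (ι x) v = polar (qPlus m F) x (v ∘ Sum.inr) := fun x v => by
    rw [qOdd, polar_qOddc]; simp [ι]
  obtain ⟨e, f, h, hp⟩ := exists_fr ((frame_qPlus F m).map (Q' := qOdd m F) ι fun x => by
    simp [qOdd_apply, qPlus_apply, ι]) le_rfl
  have hv : Pp (qOdd m F) e f (Pi.single (.inl ()) 1) := (hp _).2 fun i _ => by
    simp [hι, polar_qPlus]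
  have q1 : qOdd m F (Pi.single (.inl ()) 1) = 1 := by simp [qOdd_apply]
  refine (h.gen' (qOdd_nondeg m h2) (by simp; omega) hv hm (by simp [q1]) hv
    (by simpa [H56.polar_self', q1] using h2) (fun x hx => ⟨x (.inl ()), 0, ?_⟩) (.inl ⟨by simp [q1], by
      rw [refl_apply_self (by simp [q1])]; simpa [H56.polar_self', q1] using h2⟩)).map
    (omegaEquiv _ (coe_qOdd m F)).symm.toMonoidHom (MulEquiv.surjective _)
  ext (j | j | j)
  · simp
  · simpa [hι, polar_qPlus, Pi.single_apply] using ((hp _).1 hx j j.2).2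
  · simpa [hι, polar_qPlus, Pi.single_apply] using ((hp _).1 hx j j.2).1

theorem gen_omega_minus {m : ℕ} (hm : 3 ≤ m) {a b : F}
    (hab : ∀ z₁ z₂ : F, z₁ ^ 2 + a * z₁ * z₂ + b * z₂ ^ 2 = 0 → z₁ = 0 ∧ z₂ = 0) :
    Gen (Cfsg.Omega F (Cfsg.quadFormMinus m F a b)) 2 := by
  obtain ⟨e, f, h, hp⟩ := exists_fr (frame_qMinus F m a b) le_rfl
  have hι : ∀ x v, polar (qMinus m F a b) (inclMinus F m x) v = polar (qPlus m F) (v ∘ Sum.inl) x :=
    fun x v => by rw [polar_comm, polar_qMinus_inclMinus]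
  have hv : ∀ s t : F, Pp (qMinus m F a b) e f (Sum.elim 0 ![s, t]) := fun s t =>
    (hp _).2 fun i _ => by simp [hι]
  obtain ⟨s, hs⟩ : ∃ s : F, 2 * s + a ≠ 0 := by
    by_cases ha : a = 0
    · exact ⟨1, fun e => disc_ne_zero_of_aniso hab (by rw [ha] at e ⊢; linear_combination -2 * b * e)⟩
    · exact ⟨0, by simpa using ha⟩
  have q1 : qMinus m F a b (Sum.elim 0 ![1, 0]) = 1 := by simp [qMinus_apply]
  have q2 : polar (qMinus m F a b) (Sum.elim 0 ![1, 0]) (Sum.elim 0 ![s, 1]) = 2 * s + a := by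
    rw [polar_qMinus, polar_qBin]; simp
  refine (h.gen' (qMinus_nondeg m hab) (by simp; omega) (hv 1 0) (by omega) (by simp [q1]) (hv s 1)
    (q2 ▸ hs) (fun x hx => ⟨x (.inr 1), x (.inr 0) - s * x (.inr 1), ?_⟩) ?_).map
    (omegaEquiv _ (coe_qMinus m F a b)).symm.toMonoidHom (MulEquiv.surjective _)
  · ext ((j | j) | j)
    · simpa [hι, polar_qPlus, Pi.single_apply] using ((hp _).1 hx j j.2).2
    · simpa [hι, polar_qPlus, Pi.single_apply] using ((hp _).1 hx j j.2).1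
    · fin_cases j <;> simp; ring
  by_cases h2 : (2 : F) = 0
  · refine .inl ⟨fun e => one_ne_zero (hab s 1 (by simpa [qMinus_apply] using e)).2, ?_⟩
    rw [refl_apply, polar_sub_left, polar_smul_left, H56.polar_self', h2, q1, q2]
    simpa using hs
  · exact .inr ⟨hm, .inl h2⟩

theorem gen_omega_plus {m : ℕ} (hm : 4 ≤ m) : Gen (Cfsg.Omega F (Cfsg.quadFormPlus m F)) 2 := by
  obtain ⟨k, rfl⟩ : ∃ k, m = k + 1 := ⟨m - 1, by omega⟩
  obtain ⟨e, f, h, hp⟩ := exists_fr (frame_qPlus F (k + 1)) (Nat.le_succ k)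
  let p : F → Fin (k + 1) ⊕ Fin (k + 1) → F := fun t =>
    Pi.single (.inl (Fin.last k)) 1 + t • Pi.single (.inr (Fin.last k)) 1
  have hh := (frame_qPlus F (k + 1))
  have hv : ∀ t, Pp (qPlus (k + 1) F) e f (p t) := fun t => (hp _).2 fun i hi => by
    have : i ≠ Fin.last k := Fin.ne_of_lt hi
    simp [p, hh.ee, hh.ff, hh.ef, hh.fe, this]
  have q1 : ∀ t, qPlus (k + 1) F (p t) = t := fun t =>
    (⟨hh.qe _, hh.qf _, by simp [hh.ef]⟩ : IsHyp _ _ _).Q_add_smul t
  have q2 : ∀ t, polar (qPlus (k + 1) F) (p 1) (p t) = t + 1 := fun t => by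
    simp [p, hh.ee, hh.ff, hh.ef, hh.fe, add_comm]
  obtain ⟨t, t1, t2, t3⟩ : ∃ t : F, t + 1 ≠ 0 ∧ t - 1 ≠ 0 ∧
      ((t ≠ 0 ∧ (2 : F) = 0) ∨ (2 : F) ≠ 0 ∨ Nat.card F = 2) := by
    by_cases h2 : (2 : F) ≠ 0 ∨ Nat.card F = 2
    · exact ⟨0, by simp, by simp, .inr h2⟩
    push Not at h2
    obtain ⟨ζ, hζ⟩ := exists_isPrim F
    have h1 : ζ - 1 ≠ 0 := fun e => by
      have := hζ.le one_pos (by simpa using sub_eq_zero.1 e)
      have : 1 < Nat.card F := Finite.one_lt_card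
      omega
    exact ⟨ζ, fun e => h1 (by linear_combination e - h2.1), h1, .inl ⟨hζ.1, h2.1⟩⟩
  refine (h.gen' (qPlus_nondeg _ F) (by simp; omega) (hv 1) (by omega) (by simp [q1]) (hv t)
    (q2 t ▸ t1) (fun x hx => ⟨(x (.inr (Fin.last k)) - x (.inl (Fin.last k))) / (t - 1),
      (t * x (.inl (Fin.last k)) - x (.inr (Fin.last k))) / (t - 1), ?_⟩) (t3.imp (fun t3 => ⟨by
        simpa [q1] using t3.1, ?_⟩) fun t3 => ⟨by omega, t3⟩)).map
    (omegaEquiv _ (coe_qPlus _ F)).symm.toMonoidHom (MulEquiv.surjective _)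
  · ext (j | j) <;> by_cases hj : j = Fin.last k
    · simp [p, hj]; field_simp; ring
    · simpa [p, hj, polar_qPlus, Pi.single_apply] using ((hp _).1 hx j (Fin.val_lt_last hj)).2
    · simp [p, hj]; field_simp; ring
    · simpa [p, hj, polar_qPlus, Pi.single_apply] using ((hp _).1 hx j (Fin.val_lt_last hj)).1
  · rw [refl_apply, polar_sub_left, polar_smul_left, H56.polar_self', t3.2, q1, q1, q2]
    simpa using t1

end H57
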